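import Mathlib
import Cfsg.Prelude.Def_Characters
import Cfsg.Prelude.Def_Blocks

/-!
# S4504, parts R (reduction) and B (blocks): statements of the pieces

Setting (`RCtx L p`): `L` a finite group, `p ≥ 5` a prime, `P` a Sylow `p`-subgroup of order `p`
which is not normal and whose normal closure is `L`, `ξ` a faithful irreducible character of
degree `e = (p - 1) / 2`.  Notation: `C = C_L(P)`, `N = N_L(P)`,
`sP P F = ∑_{u ∈ P} F u`, `sPt P F k = ∑_{u ∈ P} F (u * k)`,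
`mlt ξ ψ = ∑_g ξ g * conj (ξ g) * conj (ψ g)` (`= |L|` times the multiplicity of `ψ` in
`ξ * conj ξ`).

Every `def` below with value in `Prop` is the exact statement of one piece; a piece `X` is a
theorem `main : Cfsg.Agent.Lib.Helper76.BrRB.X.{u}` (possibly with earlier pieces as hypotheses).
-/

set_option autoImplicit false

namespace Cfsg.Agent.Lib.Helper76.BrRB

open Cfsg
open scoped ComplexConjugate Classical

universe u

/-- `∑_{u ∈ P} F u`. -/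
noncomputable def sP {L : Type u} [Group L] [Fintype L] {p : ℕ} (P : Sylow p L) (F : L → ℂ) : ℂ :=
  ∑ u : L, if u ∈ (P : Subgroup L) then F u else 0

/-- `∑_{u ∈ P} F (u * k)`. -/
noncomputable def sPt {L : Type u} [Group L] [Fintype L] {p : ℕ} (P : Sylow p L) (F : L → ℂ)
    (k : L) : ℂ :=
  ∑ u : L, if u ∈ (P : Subgroup L) then F (u * k) else 0

/-- `|L|` times the multiplicity of `ψ` in `ξ * conj ξ`. -/
noncomputable def mlt {L : Type u} [Group L] [Fintype L] (ξ ψ : L → ℂ) : ℂ :=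
  ∑ g : L, ξ g * conj (ξ g) * conj (ψ g)

/-- The conclusion of the excess analysis for one irreducible character `ψ`: with
`∑_{u ∈ P} ψ u = p f` we have `(p + 1) f ≤ 2 ψ(1)`, and in the case of equality
`ψ(1) ∈ {p + 1, (p + 1) / 2}` and every `p`-regular `k ∈ C` with
`∑_{u ∈ P} ψ (u k) = ∑_{u ∈ P} ψ u` lies in the kernel of `ψ`. -/
def Exc {L : Type u} [Group L] [Fintype L] {p : ℕ} (P : Sylow p L) (ψ : L → ℂ) : Prop :=
  ∃ f : ℕ, sP P ψ = (p : ℂ) * (f : ℂ) ∧ (p + 1) * f ≤ 2 * charDegree ψ ∧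
    ((p + 1) * f = 2 * charDegree ψ →
      (charDegree ψ = p + 1 ∨ 2 * charDegree ψ = p + 1) ∧
      ∀ k : L, k ∈ Subgroup.centralizer ((P : Subgroup L) : Set L) → ¬ p ∣ orderOf k →
        sPt P ψ k = sP P ψ → ψ k = ψ 1)

/-- The setting of parts R and B. -/
structure RCtx (L : Type u) [Group L] [Fintype L] (p : ℕ) [Fact p.Prime] where
  hp5 : 5 ≤ p
  P : Sylow p L
  hP : Nat.card (P : Subgroup L) = p
  hgen : Subgroup.normalClosure ((P : Subgroup L) : Set L) = ⊤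
  hnn : ¬ (P : Subgroup L).Normal
  ξ : L → ℂ
  hξ : IsIrrCharacter L ξ
  hfaith : ∀ g : L, ξ g = ξ 1 → g = 1
  hdeg : 2 * charDegree ξ + 1 = p

/-! ## Reduction to the normal closure -/

/-- `p ≥ 5`. -/
def P5 : Prop :=
  ∀ {G : Type u} [Group G] [Finite G] (p : ℕ) [Fact p.Prime] (P : Sylow p G),
    ¬ (P : Subgroup G).Normal → ∀ χ : G → ℂ, IsCharacter G χ → (∀ g : G, χ g = χ 1 → g = 1) →
    2 * charDegree χ + 1 = p → 5 ≤ p

/-- the restriction of `χ` to the normal closure of `P` is irreducible. -/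
def R1 : Prop :=
  ∀ {G : Type u} [Group G] [Finite G] (p : ℕ) [Fact p.Prime] (P : Sylow p G),
    Nat.card (P : Subgroup G) = p → ¬ (P : Subgroup G).Normal →
    ∀ χ : G → ℂ, IsCharacter G χ → (∀ g : G, χ g = χ 1 → g = 1) → 2 * charDegree χ + 1 = p →
    IsIrrCharacter ↥(Subgroup.normalClosure ((P : Subgroup G) : Set G))
      (fun l : ↥(Subgroup.normalClosure ((P : Subgroup G) : Set G)) => χ (l : G))

/-- if `P` is normal in its normal closure, it is normal. -/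
def NN : Prop :=
  ∀ {G : Type u} [Group G] [Finite G] (p : ℕ) [Fact p.Prime] (P : Sylow p G)
    (hle : (P : Subgroup G) ≤ Subgroup.normalClosure ((P : Subgroup G) : Set G)),
    ((P.subtype hle : Sylow p ↥(Subgroup.normalClosure ((P : Subgroup G) : Set G))) :
      Subgroup ↥(Subgroup.normalClosure ((P : Subgroup G) : Set G))).Normal →
    (P : Subgroup G).Normal

/-! ## The restriction of `ξ` to `C_L(P)` -/

/-- `Helper80.BrT1core.small_degree_core` with `2 ξ(1) + 1 ≤ p` instead of `<`. -/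
def T1B : Prop :=
  ∀ {G : Type u} [Group G] [Finite G] (p : ℕ) [Fact p.Prime] (P : Sylow p G),
    Nat.card P = p →
    ∀ [Fintype ↥(Subgroup.centralizer ((P : Subgroup G) : Set G))] (ξ : IrrCharacter G),
    2 * charDegree (ξ : G → ℂ) + 1 ≤ p →
    (∀ x : G, x ∈ (P : Subgroup G) → (ξ : G → ℂ) x = (ξ : G → ℂ) 1) ∨
    ∃ (φ₀ : IrrCharacter ↥(Subgroup.centralizer ((P : Subgroup G) : Set G)))
      (ψ₀ : ↥(P : Subgroup G) →* ℂˣ), ψ₀ ≠ 1 ∧
      (∀ (u : ↥(P : Subgroup G)) (c : ↥(Subgroup.centralizer ((P : Subgroup G) : Set G))),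
        (c : G) = (u : G) →
        (φ₀ : ↥(Subgroup.centralizer ((P : Subgroup G) : Set G)) → ℂ) c =
          (φ₀ : ↥(Subgroup.centralizer ((P : Subgroup G) : Set G)) → ℂ) 1 * ((ψ₀ u : ℂˣ) : ℂ)) ∧
      classInner (fun c : ↥(Subgroup.centralizer ((P : Subgroup G) : Set G)) => (ξ : G → ℂ) (c : G))
        (φ₀ : ↥(Subgroup.centralizer ((P : Subgroup G) : Set G)) → ℂ) ≠ 0 ∧
      charDegree (ξ : G → ℂ) ≤
        (Subgroup.centralizer ((P : Subgroup G) : Set G)).relIndex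
          (Subgroup.normalizer ((P : Subgroup G) : Set G)) *
          charDegree (φ₀ : ↥(Subgroup.centralizer ((P : Subgroup G) : Set G)) → ℂ)

/-- `Helper74.BrauerT1.small_degree_type` with `2 ξ(1) + 1 ≤ p` instead of `<`. -/
def T1T : Prop :=
  ∀ {G : Type u} [Group G] [Finite G] (p : ℕ) [Fact p.Prime] (P : Sylow p G),
    Nat.card P = p → ∀ (ξ : IrrCharacter G), 2 * charDegree (ξ : G → ℂ) + 1 ≤ p →
    (∀ x : G, x ∈ (P : Subgroup G) → (ξ : G → ℂ) x = (ξ : G → ℂ) 1) ∨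
    ((Subgroup.centralizer ((P : Subgroup G) : Set G)).relIndex
        (Subgroup.normalizer ((P : Subgroup G) : Set G)) ≤ charDegree (ξ : G → ℂ) ∧
      ∑ᶠ c ∈ ((Subgroup.centralizer ((P : Subgroup G) : Set G) : Subgroup G) : Set G),
        (ξ : G → ℂ) c * conj ((ξ : G → ℂ) c) =
        ((Subgroup.centralizer ((P : Subgroup G) : Set G)).relIndex
          (Subgroup.normalizer ((P : Subgroup G) : Set G)) : ℂ) *
          (Nat.card ↥(Subgroup.centralizer ((P : Subgroup G) : Set G)) : ℂ) ∧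
      ∃ ψ₀ : ↥(P : Subgroup G) →* ℂˣ, ψ₀ ≠ 1 ∧
        ∀ ψ : ↥(P : Subgroup G) →* ℂˣ,
          ∑ᶠ u : ↥(P : Subgroup G), (ξ : G → ℂ) (u : G) * conj ((ψ u : ℂˣ) : ℂ) ≠ 0 →
          ∃ n : G, n ∈ Subgroup.normalizer ((P : Subgroup G) : Set G) ∧
            ∀ (u u' : ↥(P : Subgroup G)), (u' : G) = n * (u : G) * n⁻¹ → ψ u = ψ₀ u')

/-- `|N : C| = e`: otherwise (`Helper74.BrauerMain.core`) `P` would act by scalars, hence be
central. -/
def NCE : Prop :=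
  ∀ {L : Type u} [Group L] [Fintype L] (p : ℕ) [Fact p.Prime] (c : RCtx L p),
    ((Subgroup.centralizer ((c.P : Subgroup L) : Set L)).relIndex
        (Subgroup.normalizer ((c.P : Subgroup L) : Set L)) ≤ charDegree c.ξ ∧
      ∑ᶠ k ∈ ((Subgroup.centralizer ((c.P : Subgroup L) : Set L) : Subgroup L) : Set L),
        c.ξ k * conj (c.ξ k) =
        ((Subgroup.centralizer ((c.P : Subgroup L) : Set L)).relIndex
          (Subgroup.normalizer ((c.P : Subgroup L) : Set L)) : ℂ) *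
          (Nat.card ↥(Subgroup.centralizer ((c.P : Subgroup L) : Set L)) : ℂ) ∧
      ∃ ψ₀ : ↥(c.P : Subgroup L) →* ℂˣ, ψ₀ ≠ 1 ∧
        ∀ ψ : ↥(c.P : Subgroup L) →* ℂˣ,
          ∑ᶠ u : ↥(c.P : Subgroup L), c.ξ (u : L) * conj ((ψ u : ℂˣ) : ℂ) ≠ 0 →
          ∃ n : L, n ∈ Subgroup.normalizer ((c.P : Subgroup L) : Set L) ∧
            ∀ (u u' : ↥(c.P : Subgroup L)), (u' : L) = n * (u : L) * n⁻¹ → ψ u = ψ₀ u') →
    (Subgroup.centralizer ((c.P : Subgroup L) : Set L)).relIndex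
        (Subgroup.normalizer ((c.P : Subgroup L) : Set L)) = charDegree c.ξ

/-- The shape of `ξ` on `C = C_L(P)`: `S` is a set of linear characters of `C` with sum `ξ|_C`,
each of them an `N`-conjugate of `ψ₀` on `P`. -/
def OrbData {L : Type u} [Group L] [Fintype L] {p : ℕ} [Fact p.Prime] (c : RCtx L p)
    (S : Finset (↥(Subgroup.centralizer ((c.P : Subgroup L) : Set L)) →* ℂˣ))
    (ψ₀ : ↥(c.P : Subgroup L) →* ℂˣ) : Prop :=
  ψ₀ ≠ 1 ∧ S.card = charDegree c.ξ ∧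
  (∀ k : ↥(Subgroup.centralizer ((c.P : Subgroup L) : Set L)),
    c.ξ (k : L) = ∑ μ ∈ S, ((μ k : ℂˣ) : ℂ)) ∧
  ∀ μ ∈ S, ∃ n : L, n ∈ Subgroup.normalizer ((c.P : Subgroup L) : Set L) ∧
    ∀ (u u' : ↥(c.P : Subgroup L)) (k : ↥(Subgroup.centralizer ((c.P : Subgroup L) : Set L))),
      (k : L) = (u : L) → (u' : L) = n * (u : L) * n⁻¹ → μ k = ψ₀ u'

/-- `|N : C| = e` and `ξ|_C` is a sum of `e` linear characters, conjugates of one of them. -/
def ORB : Prop :=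
  ∀ {L : Type u} [Group L] [Fintype L] (p : ℕ) [Fact p.Prime] (c : RCtx L p),
    (Subgroup.centralizer ((c.P : Subgroup L) : Set L)).relIndex
        (Subgroup.normalizer ((c.P : Subgroup L) : Set L)) = charDegree c.ξ ∧
    ∃ (S : Finset (↥(Subgroup.centralizer ((c.P : Subgroup L) : Set L)) →* ℂˣ))
      (ψ₀ : ↥(c.P : Subgroup L) →* ℂˣ), OrbData c S ψ₀

/-- the members of `S` have distinct restrictions to `P`. -/
def INJ : Prop :=
  ∀ {L : Type u} [Group L] [Fintype L] (p : ℕ) [Fact p.Prime] (c : RCtx L p)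
    (S : Finset (↥(Subgroup.centralizer ((c.P : Subgroup L) : Set L)) →* ℂˣ))
    (ψ₀ : ↥(c.P : Subgroup L) →* ℂˣ), OrbData c S ψ₀ →
    (Subgroup.centralizer ((c.P : Subgroup L) : Set L)).relIndex
        (Subgroup.normalizer ((c.P : Subgroup L) : Set L)) = charDegree c.ξ →
    ∀ μ ∈ S, ∀ μ' ∈ S,
      (∀ k : ↥(Subgroup.centralizer ((c.P : Subgroup L) : Set L)),
        (k : L) ∈ (c.P : Subgroup L) → μ k = μ' k) → μ = μ'

/-- fusion in `P`: if `|N : C| = (p - 1) / 2` and `n x n⁻¹ = x ^ k` then `k` is a square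
mod `p`. -/
def FUS : Prop :=
  ∀ {L : Type u} [Group L] [Finite L] (p : ℕ) [Fact p.Prime] (P : Sylow p L),
    Nat.card (P : Subgroup L) = p →
    2 * (Subgroup.centralizer ((P : Subgroup L) : Set L)).relIndex
        (Subgroup.normalizer ((P : Subgroup L) : Set L)) + 1 = p →
    ∀ (x n : L) (k : ℕ), x ∈ (P : Subgroup L) → x ≠ 1 → n * x * n⁻¹ = x ^ k →
      IsSquare ((k : ℕ) : ZMod p)

/-- the values of `ξ` on `P` are Gauss periods. -/
def RES : Prop :=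
  ∀ {L : Type u} [Group L] [Fintype L] (p : ℕ) [Fact p.Prime] (c : RCtx L p)
    (S : Finset (↥(Subgroup.centralizer ((c.P : Subgroup L) : Set L)) →* ℂˣ))
    (ψ₀ : ↥(c.P : Subgroup L) →* ℂˣ), OrbData c S ψ₀ →
    (Subgroup.centralizer ((c.P : Subgroup L) : Set L)).relIndex
        (Subgroup.normalizer ((c.P : Subgroup L) : Set L)) = charDegree c.ξ →
    ∀ x : L, x ∈ (c.P : Subgroup L) → x ≠ 1 →
    ∃ ζ : ℂ, IsPrimitiveRoot ζ p ∧ ∀ a : ℕ,
      c.ξ (x ^ a) =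
        ∑ s ∈ Finset.univ.filter (fun s : ZMod p => s ≠ 0 ∧ IsSquare s), ζ ^ (a * s.val)

/-- `∑_{u ∈ P} |ξ (u k)|^2 = p e` for `k ∈ C`. -/
def PHI : Prop :=
  ∀ {L : Type u} [Group L] [Fintype L] (p : ℕ) [Fact p.Prime] (c : RCtx L p)
    (S : Finset (↥(Subgroup.centralizer ((c.P : Subgroup L) : Set L)) →* ℂˣ))
    (ψ₀ : ↥(c.P : Subgroup L) →* ℂˣ), OrbData c S ψ₀ →
    (Subgroup.centralizer ((c.P : Subgroup L) : Set L)).relIndex
        (Subgroup.normalizer ((c.P : Subgroup L) : Set L)) = charDegree c.ξ →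
    ∀ k : L, k ∈ Subgroup.centralizer ((c.P : Subgroup L) : Set L) →
      sPt c.P (fun g => c.ξ g * conj (c.ξ g)) k = (p : ℂ) * (charDegree c.ξ : ℂ)

/-! ## Blocks -/

/-- `Helper93.BrauerB0.b0_structure` with one more conjunct: the characters outside `X ∪ Y`
have vanishing sums over the `p`-regular elements of `u C`, `u ∈ P \ {1}`. -/
def B0X : Prop :=
  ∀ {G : Type u} [Group G] [Finite G] (p : ℕ) [Fact p.Prime], p ≠ 2 → ∀ (P : Sylow p G),
    Nat.card P = p →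
    ∃ (X Y : Set (IrrCharacter G)) (ε : IrrCharacter G → ℤ) (ε' : ℤ),
      Nat.card X = (Subgroup.centralizer ((P : Subgroup G) : Set G)).relIndex
        (Subgroup.normalizer ((P : Subgroup G) : Set G)) ∧
      Nat.card X * Nat.card Y = p - 1 ∧
      (∀ ξ ∈ X, ε ξ = 1 ∨ ε ξ = -1) ∧ (ε' = 1 ∨ ε' = -1) ∧
      (∀ ξ ∈ X, ∀ g : G, p ∣ orderOf g → (ξ : G → ℂ) g = (ε ξ : ℂ)) ∧
      (∀ g : G, p ∣ orderOf g → ∑ᶠ η ∈ Y, (η : G → ℂ) g = -(ε' : ℂ)) ∧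
      (∀ g : G, ¬ p ∣ orderOf g → ∀ η ∈ Y,
        ∑ᶠ ξ ∈ X, (ε ξ : ℂ) * (ξ : G → ℂ) g = (ε' : ℂ) * (η : G → ℂ) g) ∧
      (∀ η ∈ Y, ∀ η' ∈ Y, ∀ c : G, c ∈ Subgroup.centralizer ((P : Subgroup G) : Set G) →
        ∑ᶠ u ∈ ((P : Subgroup G) : Set G), (η : G → ℂ) (u * c) =
          ∑ᶠ u ∈ ((P : Subgroup G) : Set G), (η' : G → ℂ) (u * c)) ∧
      (∀ χ : IrrCharacter G, χ ∉ X → χ ∉ Y → ∀ u : G, u ∈ (P : Subgroup G) → u ≠ 1 →
        ∑ᶠ k ∈ {k : G | k ∈ Subgroup.centralizer ((P : Subgroup G) : Set G) ∧ ¬ p ∣ orderOf k},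
          (χ : G → ℂ) (u * k) = 0)

/-- for a character `ψ` and `k ∈ C`: `∑_{u ∈ P} ψ u` is a nonnegative real `r` and
`|∑_{u ∈ P} ψ (u k)| ≤ r`. -/
def AVB : Prop :=
  ∀ {L : Type u} [Group L] [Fintype L] (p : ℕ) [Fact p.Prime] (P : Sylow p L),
    Nat.card (P : Subgroup L) = p → ∀ ψ : L → ℂ, IsCharacter L ψ →
    ∀ k : L, k ∈ Subgroup.centralizer ((P : Subgroup L) : Set L) →
    ∃ r : ℝ, sP P ψ = (r : ℂ) ∧ ‖sPt P ψ k‖ ≤ r

/-- for a constituent `ψ` of `ξ * conj ξ` and `k ∈ C`: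
`∑_{u ∈ P} ψ (u k) = ∑_{u ∈ P} ψ u`. -/
def HA : Prop :=
  ∀ {L : Type u} [Group L] [Fintype L] (p : ℕ) [Fact p.Prime] (c : RCtx L p),
    (∀ k : L, k ∈ Subgroup.centralizer ((c.P : Subgroup L) : Set L) →
      sPt c.P (fun g => c.ξ g * conj (c.ξ g)) k = (p : ℂ) * (charDegree c.ξ : ℂ)) →
    ∀ ψ : IrrCharacter L, mlt c.ξ (ψ : L → ℂ) ≠ 0 →
    ∀ k : L, k ∈ Subgroup.centralizer ((c.P : Subgroup L) : Set L) →
      sPt c.P (ψ : L → ℂ) k = sP c.P (ψ : L → ℂ)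

/-- excess of a non-exceptional character of the principal block. -/
def EX : Prop :=
  ∀ {L : Type u} [Group L] [Fintype L] (p : ℕ) [Fact p.Prime] (P : Sylow p L),
    Nat.card (P : Subgroup L) = p → 5 ≤ p →
    Subgroup.normalClosure ((P : Subgroup L) : Set L) = ⊤ →
    ∀ ψ : L → ℂ, IsIrrCharacter L ψ → (∃ g, ψ g ≠ 1) →
    ∀ ε : ℤ, (ε = 1 ∨ ε = -1) → (∀ g : L, p ∣ orderOf g → ψ g = (ε : ℂ)) → Exc P ψ

/-- excess of an exceptional character of the principal block (two exceptional characters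
`η`, `η'`). -/
def EY : Prop :=
  ∀ {L : Type u} [Group L] [Fintype L] (p : ℕ) [Fact p.Prime] (P : Sylow p L),
    Nat.card (P : Subgroup L) = p → 5 ≤ p →
    ∀ η η' : L → ℂ, IsIrrCharacter L η → IsIrrCharacter L η' →
    ∀ ε' : ℤ, (ε' = 1 ∨ ε' = -1) →
    (∀ g : L, p ∣ orderOf g → η g + η' g = -(ε' : ℂ)) →
    (∀ g : L, ¬ p ∣ orderOf g → η g = η' g) →
    (∀ k : L, k ∈ Subgroup.centralizer ((P : Subgroup L) : Set L) → sPt P η k = sPt P η' k) →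
    Exc P η

/-- excess of a character outside the principal block. -/
def EO : Prop :=
  ∀ {L : Type u} [Group L] [Fintype L] (p : ℕ) [Fact p.Prime] (P : Sylow p L),
    Nat.card (P : Subgroup L) = p →
    ∀ ψ : L → ℂ, IsIrrCharacter L ψ →
    (∀ u : L, u ∈ (P : Subgroup L) → u ≠ 1 →
      ∑ᶠ k ∈ {k : L | k ∈ Subgroup.centralizer ((P : Subgroup L) : Set L) ∧ ¬ p ∣ orderOf k},
        ψ (u * k) = 0) →
    (∀ k : L, k ∈ Subgroup.centralizer ((P : Subgroup L) : Set L) → ¬ p ∣ orderOf k →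
      sPt P ψ k = sP P ψ) →
    ∃ f : ℕ, sP P ψ = (p : ℂ) * (f : ℂ) ∧ (p + 1) * f < 2 * charDegree ψ

/-- the two exceptional characters. -/
def YTWO : Prop :=
  ∀ {L : Type u} [Group L] [Fintype L] (p : ℕ) [Fact p.Prime] (P : Sylow p L)
    (Y : Set (IrrCharacter L)) (ε' : ℤ) (A : L → ℂ), Nat.card Y = 2 → (ε' = 1 ∨ ε' = -1) →
    (∀ g : L, p ∣ orderOf g → ∑ᶠ η ∈ Y, (η : L → ℂ) g = -(ε' : ℂ)) →
    (∀ g : L, ¬ p ∣ orderOf g → ∀ η ∈ Y, A g = (ε' : ℂ) * (η : L → ℂ) g) →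
    (∀ η ∈ Y, ∀ η' ∈ Y, ∀ c : L, c ∈ Subgroup.centralizer ((P : Subgroup L) : Set L) →
      ∑ᶠ u ∈ ((P : Subgroup L) : Set L), (η : L → ℂ) (u * c) =
        ∑ᶠ u ∈ ((P : Subgroup L) : Set L), (η' : L → ℂ) (u * c)) →
    ∀ η ∈ Y, ∃ η' : IrrCharacter L,
      (∀ g : L, p ∣ orderOf g → (η : L → ℂ) g + (η' : L → ℂ) g = -(ε' : ℂ)) ∧
      (∀ g : L, ¬ p ∣ orderOf g → (η : L → ℂ) g = (η' : L → ℂ) g) ∧
      (∀ k : L, k ∈ Subgroup.centralizer ((P : Subgroup L) : Set L) →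
        sPt P (η : L → ℂ) k = sPt P (η' : L → ℂ) k)

/-- every nontrivial irreducible constituent of `ξ * conj ξ` satisfies `Exc`. -/
def EXC : Prop :=
  ∀ {L : Type u} [Group L] [Fintype L] (p : ℕ) [Fact p.Prime] (c : RCtx L p),
    (Subgroup.centralizer ((c.P : Subgroup L) : Set L)).relIndex
        (Subgroup.normalizer ((c.P : Subgroup L) : Set L)) = charDegree c.ξ →
    (∀ ψ : IrrCharacter L, mlt c.ξ (ψ : L → ℂ) ≠ 0 →
      ∀ k : L, k ∈ Subgroup.centralizer ((c.P : Subgroup L) : Set L) →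
        sPt c.P (ψ : L → ℂ) k = sP c.P (ψ : L → ℂ)) →
    ∀ ψ : IrrCharacter L, (∃ g, (ψ : L → ℂ) g ≠ 1) → mlt c.ξ (ψ : L → ℂ) ≠ 0 →
      Exc c.P (ψ : L → ℂ)

/-- the weighted sum of the excesses over the nontrivial constituents vanishes. -/
def SUM : Prop :=
  ∀ {L : Type u} [Group L] [Fintype L] (p : ℕ) [Fact p.Prime] (c : RCtx L p),
    sP c.P (fun g => c.ξ g * conj (c.ξ g)) = (p : ℂ) * (charDegree c.ξ : ℂ) →
    ∑ᶠ ψ : IrrCharacter L, (if (∃ g, (ψ : L → ℂ) g ≠ 1) then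
      mlt c.ξ (ψ : L → ℂ) * (2 * (p : ℂ) * (ψ : L → ℂ) 1 - ((p : ℂ) + 1) * sP c.P (ψ : L → ℂ))
      else 0) = 0

/-- the conclusion of part B for one character. -/
def HBc {L : Type u} [Group L] [Fintype L] {p : ℕ} [Fact p.Prime] (c : RCtx L p)
    (ψ : L → ℂ) : Prop :=
  ((p : ℂ) + 1) * sP c.P ψ = 2 * (p : ℂ) * ψ 1 ∧ charDegree ψ ≤ p + 1 ∧
    ∀ k : L, k ∈ Subgroup.centralizer ((c.P : Subgroup L) : Set L) → ¬ p ∣ orderOf k →
      ψ k = ψ 1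

/-- part B: all nontrivial constituents have excess zero. -/
def HBF : Prop :=
  ∀ {L : Type u} [Group L] [Fintype L] (p : ℕ) [Fact p.Prime] (c : RCtx L p),
    (∀ ψ : IrrCharacter L, (∃ g, (ψ : L → ℂ) g ≠ 1) → mlt c.ξ (ψ : L → ℂ) ≠ 0 →
      Exc c.P (ψ : L → ℂ)) →
    (∑ᶠ ψ : IrrCharacter L, (if (∃ g, (ψ : L → ℂ) g ≠ 1) then
      mlt c.ξ (ψ : L → ℂ) * (2 * (p : ℂ) * (ψ : L → ℂ) 1 - ((p : ℂ) + 1) * sP c.P (ψ : L → ℂ))
      else 0) = 0) →
    (∀ ψ : IrrCharacter L, mlt c.ξ (ψ : L → ℂ) ≠ 0 →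
      ∀ k : L, k ∈ Subgroup.centralizer ((c.P : Subgroup L) : Set L) →
        sPt c.P (ψ : L → ℂ) k = sP c.P (ψ : L → ℂ)) →
    ∀ ψ : IrrCharacter L, (∃ g, (ψ : L → ℂ) g ≠ 1) → mlt c.ξ (ψ : L → ℂ) ≠ 0 →
      HBc c (ψ : L → ℂ)

/-- the `p`-regular elements of `C` are central. -/
def VZ : Prop :=
  ∀ {L : Type u} [Group L] [Fintype L] (p : ℕ) [Fact p.Prime] (c : RCtx L p),
    (∀ ψ : IrrCharacter L, (∃ g, (ψ : L → ℂ) g ≠ 1) → mlt c.ξ (ψ : L → ℂ) ≠ 0 →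
      HBc c (ψ : L → ℂ)) →
    ∀ k : L, k ∈ Subgroup.centralizer ((c.P : Subgroup L) : Set L) → ¬ p ∣ orderOf k →
      k ∈ Subgroup.center L

/-- `C_L(x) = ⟨x⟩ × Z(L)`. -/
def HC : Prop :=
  ∀ {L : Type u} [Group L] [Fintype L] (p : ℕ) [Fact p.Prime] (c : RCtx L p),
    (∀ k : L, k ∈ Subgroup.centralizer ((c.P : Subgroup L) : Set L) → ¬ p ∣ orderOf k →
      k ∈ Subgroup.center L) →
    ∀ x : L, x ∈ (c.P : Subgroup L) → x ≠ 1 →
    ∀ g : L, g * x = x * g → ∃ a : ℕ, ∃ z ∈ Subgroup.center L, g = x ^ a * z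

end Cfsg.Agent.Lib.Helper76.BrRB
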