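import Mathlib
import Cfsg.Agent.Lib.Helper44.TSStmt

/-!
# S5972 piece TYPEOF: an invariant subspace of finrank `i` without fixed vectors is killed by
`P(x)` for a monic irreducible factor `P` of the cyclotomic polynomial.
-/

set_option autoImplicit false

namespace Cfsg.Agent.Lib.Helper76.TSTYPEOF

open Cfsg.Agent.Lib.Helper37.HypStmt Cfsg.Agent.Lib.Helper37.HypStmt2
open Cfsg.Agent.Lib.Helper44.TSStmt
open Polynomial

universe u

section gen

variable {F : Type u} [Field F] {V : Type u} [AddCommGroup V] [Module F V]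

theorem pow_mem (f : V →ₗ[F] V) (B : Submodule F V) (hB : ∀ v ∈ B, f v ∈ B) (n : ℕ) :
    ∀ v ∈ B, (f ^ n) v ∈ B := by
  induction n with
  | zero => intro v hv; simpa using hv
  | succ n ih =>
    intro v hv
    rw [pow_succ, Module.End.mul_apply]
    exact ih _ (hB v hv)

theorem aeval_mem (f : V →ₗ[F] V) (B : Submodule F V) (hB : ∀ v ∈ B, f v ∈ B) (g : F[X]) :
    ∀ v ∈ B, aeval f g v ∈ B := by
  induction g using Polynomial.induction_on' with
  | add a b ha hb =>
    intro v hv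
    rw [map_add, LinearMap.add_apply]
    exact B.add_mem (ha v hv) (hb v hv)
  | monomial n a =>
    intro v hv
    rw [Polynomial.aeval_monomial, Module.End.mul_apply, Module.algebraMap_end_apply]
    exact B.smul_mem _ (pow_mem f B hB n v hv)

theorem aeval_comm (f : V →ₗ[F] V) (g : F[X]) : aeval f g * f = f * aeval f g := by
  have h1 : aeval f (g * X) = aeval f (X * g) := by rw [mul_comm]
  rwa [map_mul, map_mul, aeval_X] at h1

theorem exists_factor_vec (f : V →ₗ[F] V) (B : Submodule F V) (hB : ∀ v ∈ B, f v ∈ B)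
    (Φ : F[X]) (hΦ0 : Φ ≠ 0) (hΦ : ∀ v ∈ B, aeval f Φ v = 0) (v : V) (hv : v ∈ B)
    (hv0 : v ≠ 0) :
    ∃ P₀ : F[X], Irreducible P₀ ∧ P₀ ∣ Φ ∧ ∃ w ∈ B, w ≠ 0 ∧ aeval f P₀ w = 0 := by
  let J : Ideal F[X] :=
    { carrier := {g | aeval f g v = 0}
      add_mem' := by
        intro a b ha hb
        change aeval f a v = 0 at ha
        change aeval f b v = 0 at hb
        change aeval f (a + b) v = 0
        rw [map_add, LinearMap.add_apply, ha, hb, add_zero]
      zero_mem' := by
        change aeval f (0 : F[X]) v = 0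
        simp
      smul_mem' := by
        intro c g hg
        change aeval f g v = 0 at hg
        change aeval f (c * g) v = 0
        rw [map_mul, Module.End.mul_apply, hg, map_zero] }
  have hΦJ : Φ ∈ J := hΦ v hv
  have hmΦ : Submodule.IsPrincipal.generator J ∣ Φ :=
    (Submodule.IsPrincipal.mem_iff_generator_dvd J).1 hΦJ
  have hm0 : Submodule.IsPrincipal.generator J ≠ 0 := by
    intro h
    rw [h] at hmΦ
    exact hΦ0 (zero_dvd_iff.1 hmΦ)
  have hmJ : Submodule.IsPrincipal.generator J ∈ J := Submodule.IsPrincipal.generator_mem J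
  have hmu : ¬ IsUnit (Submodule.IsPrincipal.generator J) := by
    intro hu
    have h1 : (1 : F[X]) ∈ J := by
      rw [Ideal.eq_top_of_isUnit_mem J hmJ hu]
      trivial
    have h2 : aeval f (1 : F[X]) v = 0 := h1
    rw [map_one, Module.End.one_apply] at h2
    exact hv0 h2
  obtain ⟨P₀, hP₀, h, hh⟩ := WfDvdMonoid.exists_irreducible_factor hmu hm0
  refine ⟨P₀, hP₀, dvd_trans ⟨h, hh⟩ hmΦ, aeval f h v, aeval_mem f B hB h v hv, ?_, ?_⟩
  · intro hw
    have hhJ : h ∈ J := hw
    obtain ⟨c, hc⟩ := (Submodule.IsPrincipal.mem_iff_generator_dvd J).1 hhJ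
    have hh0 : h ≠ 0 := by
      rintro rfl
      rw [mul_zero] at hh
      exact hm0 hh
    have h1 : h * 1 = h * (P₀ * c) := by
      rw [mul_one]
      conv_lhs => rw [hc, hh]
      ring
    have h2 : P₀ * c = 1 := (mul_left_cancel₀ hh0 h1).symm
    exact hP₀.not_isUnit (IsUnit.of_mul_eq_one _ h2)
  · rw [← Module.End.mul_apply, ← map_mul, ← hh]
    exact hmJ

end gen

theorem normalize_fac {F : Type u} [Field F] (r : ℕ) (P₀ : F[X]) (hP₀ : Irreducible P₀)
    (hdvd : P₀ ∣ cyclotomic r F) : P₀ * C (P₀.leadingCoeff)⁻¹ ∈ Fac r F := by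
  refine ⟨Polynomial.monic_mul_leadingCoeff_inv hP₀.ne_zero,
    Polynomial.irreducible_mul_leadingCoeff_inv.2 hP₀, ?_⟩
  have hu : IsUnit (C (P₀.leadingCoeff)⁻¹ : F[X]) :=
    Polynomial.isUnit_C.2 (IsUnit.mk0 _ (inv_ne_zero (leadingCoeff_ne_zero.2 hP₀.ne_zero)))
  exact hu.mul_right_dvd.2 hdvd

theorem main : InvDim.{u} → TypeOf.{u} := by
  intro hInv F _ _ p _ _ d r _ hrp x hxr B hBstab hBfix hBdim
  classical
  have hB : ∀ v ∈ B, Matrix.toLin' (x : Matrix (I d) (I d) F) v ∈ B :=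
    fun v hv => hBstab (Submodule.mem_map_of_mem hv)
  have hfr : Matrix.toLin' (x : Matrix (I d) (I d) F) ^ r = 1 := by
    rw [← Matrix.toLin'_pow, ← Units.val_pow_eq_pow_val, hxr, Units.val_one, Matrix.toLin'_one]
    rfl
  have hΦ0 : cyclotomic r F ≠ 0 := Polynomial.cyclotomic_ne_zero r F
  have hΦ : ∀ v ∈ B,
      aeval (Matrix.toLin' (x : Matrix (I d) (I d) F)) (cyclotomic r F) v = 0 := by
    intro v hv
    have h1 := aeval_mem _ B hB (cyclotomic r F) v hv
    have h2 : aeval (Matrix.toLin' (x : Matrix (I d) (I d) F)) (cyclotomic r F) v ∈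
        Fx (x : Matrix (I d) (I d) F) := by
      unfold Fx
      rw [LinearMap.mem_ker]
      have h3 : aeval (Matrix.toLin' (x : Matrix (I d) (I d) F))
          ((X - 1) * cyclotomic r F) = 0 := by
        rw [mul_comm, Polynomial.cyclotomic_prime_mul_X_sub_one, map_sub, map_pow, aeval_X,
          map_one, hfr, sub_self]
      rw [map_mul, map_sub, aeval_X, map_one] at h3
      have h4 := congrArg (fun g => g v) h3
      simpa [Module.End.mul_apply] using h4
    have h5 : aeval (Matrix.toLin' (x : Matrix (I d) (I d) F)) (cyclotomic r F) v ∈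
        B ⊓ Fx (x : Matrix (I d) (I d) F) := ⟨h1, h2⟩
    rw [hBfix] at h5
    exact (Submodule.mem_bot F).1 h5
  by_cases hBbot : B = ⊥
  · have hnu : ¬ IsUnit (cyclotomic r F) := by
      intro hu
      have h1 := Polynomial.natDegree_eq_zero_of_isUnit hu
      rw [Polynomial.natDegree_cyclotomic, Nat.totient_prime (Fact.out)] at h1
      have h2 := (Fact.out : r.Prime).two_le
      omega
    obtain ⟨P₀, hP₀, hdvd⟩ := WfDvdMonoid.exists_irreducible_factor hnu hΦ0
    refine ⟨_, normalize_fac r P₀ hP₀ hdvd, ?_⟩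
    intro v hv
    rw [hBbot, Submodule.mem_bot] at hv
    rw [hv, map_zero]
  · obtain ⟨v, hv, hv0⟩ := (Submodule.ne_bot_iff B).1 hBbot
    obtain ⟨P₀, hP₀, hdvd, w, hw, hw0, hPw⟩ :=
      exists_factor_vec _ B hB (cyclotomic r F) hΦ0 hΦ v hv hv0
    refine ⟨_, normalize_fac r P₀ hP₀ hdvd, ?_⟩
    have hPw' : aeval (Matrix.toLin' (x : Matrix (I d) (I d) F))
        (P₀ * C (P₀.leadingCoeff)⁻¹) w = 0 := by
      rw [mul_comm, map_mul, Module.End.mul_apply, hPw, map_zero]
    have hUstab : Stab (x : Matrix (I d) (I d) F)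
        (B ⊓ LinearMap.ker (aeval (Matrix.toLin' (x : Matrix (I d) (I d) F))
          (P₀ * C (P₀.leadingCoeff)⁻¹))) := by
      rintro _ ⟨u, hu, rfl⟩
      have hu2 : aeval (Matrix.toLin' (x : Matrix (I d) (I d) F))
          (P₀ * C (P₀.leadingCoeff)⁻¹) u = 0 := hu.2
      refine ⟨hB u hu.1, ?_⟩
      change aeval (Matrix.toLin' (x : Matrix (I d) (I d) F))
          (P₀ * C (P₀.leadingCoeff)⁻¹) (Matrix.toLin' (x : Matrix (I d) (I d) F) u) = 0
      have hcomm := aeval_comm (Matrix.toLin' (x : Matrix (I d) (I d) F))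
        (P₀ * C (P₀.leadingCoeff)⁻¹)
      have h2 := congrArg (fun g => g u) hcomm
      simp only [Module.End.mul_apply] at h2
      rw [h2, hu2, map_zero]
    have hUfix : (B ⊓ LinearMap.ker (aeval (Matrix.toLin' (x : Matrix (I d) (I d) F))
          (P₀ * C (P₀.leadingCoeff)⁻¹))) ⊓ Fx (x : Matrix (I d) (I d) F) = ⊥ := by
      rw [eq_bot_iff, ← hBfix]
      exact inf_le_inf_right _ inf_le_left
    have hdiv := hInv F p d r hrp x hxr _ hUstab hUfix
    have hUpos : 0 < Module.finrank F ↥(B ⊓ LinearMap.ker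
        (aeval (Matrix.toLin' (x : Matrix (I d) (I d) F)) (P₀ * C (P₀.leadingCoeff)⁻¹))) := by
      rw [Module.finrank_pos_iff_exists_ne_zero]
      exact ⟨⟨w, hw, LinearMap.mem_ker.2 hPw'⟩, fun h => hw0 (congrArg Subtype.val h)⟩
    have hle : Module.finrank F ↥B ≤ Module.finrank F ↥(B ⊓ LinearMap.ker
        (aeval (Matrix.toLin' (x : Matrix (I d) (I d) F)) (P₀ * C (P₀.leadingCoeff)⁻¹))) := by
      rw [hBdim]
      exact Nat.le_of_dvd hUpos hdiv
    have hUeq := Submodule.eq_of_le_of_finrank_le inf_le_left hle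
    intro b hb
    rw [← hUeq] at hb
    exact LinearMap.mem_ker.1 hb.2

#print axioms main

end Cfsg.Agent.Lib.Helper76.TSTYPEOF
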