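import Mathlib
import Cfsg.Agent.Lib.Helper16.BFStmt
import Cfsg.Agent.Lib.Helper75.SelfCentCore
import Cfsg.Agent.Lib.Helper33.BRW2

/-!
# S4700 piece RED: reduction to `G / O_{p'}(G)`
-/

set_option autoImplicit false

namespace Cfsg.Agent.Lib.Helper76.BFRED

open Cfsg

universe u

/-- `O_{p'}(G / O_{p'}(G)) = 1`. -/
theorem core_quot_bot {G : Type u} [Group G] [Finite G] (p : ℕ) [Fact p.Prime] :
    pPrimeCore p (G ⧸ pPrimeCore p G) = ⊥ := by
  have hp : p.Prime := Fact.out
  have hK'c : ¬ p ∣ Nat.card (pPrimeCore p (G ⧸ pPrimeCore p G)) :=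
    Cfsg.Agent.Lib.Helper75.SelfCentCore.pPrimeCore_not_dvd _ hp
  have hHc : ¬ p ∣ Nat.card (pPrimeCore p G) :=
    Cfsg.Agent.Lib.Helper75.SelfCentCore.pPrimeCore_not_dvd G hp
  have hKn : ((pPrimeCore p (G ⧸ pPrimeCore p G)).comap
      (QuotientGroup.mk' (pPrimeCore p G))).Normal := inferInstance
  have hKc : ¬ p ∣ Nat.card ((pPrimeCore p (G ⧸ pPrimeCore p G)).comap
      (QuotientGroup.mk' (pPrimeCore p G))) := by
    intro hdvd
    obtain ⟨x, hx⟩ := exists_prime_orderOf_dvd_card' p hdvd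
    have hxo : orderOf (x : G) = p := by rw [Subgroup.orderOf_coe]; exact hx
    have hxm : QuotientGroup.mk' (pPrimeCore p G) (x : G) ∈
        pPrimeCore p (G ⧸ pPrimeCore p G) := x.2
    have hd : orderOf (QuotientGroup.mk' (pPrimeCore p G) (x : G)) ∣ p := by
      have h0 := orderOf_map_dvd (QuotientGroup.mk' (pPrimeCore p G)) (x : G)
      rwa [hxo] at h0
    rcases (Nat.dvd_prime hp).1 hd with h1 | h1
    · -- the image is trivial, so `x ∈ O_{p'}(G)`
      have h2 : QuotientGroup.mk' (pPrimeCore p G) (x : G) = 1 := orderOf_eq_one_iff.1 h1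
      have h3 : (x : G) ∈ pPrimeCore p G := by
        have := (QuotientGroup.eq_one_iff (N := pPrimeCore p G) (x : G)).1 h2
        exact this
      apply hHc
      have h4 : orderOf (⟨(x : G), h3⟩ : pPrimeCore p G) = p := by
        rw [← Subgroup.orderOf_coe]; exact hxo
      have h5 := orderOf_dvd_natCard (⟨(x : G), h3⟩ : pPrimeCore p G)
      rwa [h4] at h5
    · apply hK'c
      have h4 : orderOf (⟨QuotientGroup.mk' (pPrimeCore p G) (x : G), hxm⟩ :
          pPrimeCore p (G ⧸ pPrimeCore p G)) = p := by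
        rw [← Subgroup.orderOf_coe]; exact h1
      have h5 := orderOf_dvd_natCard (⟨QuotientGroup.mk' (pPrimeCore p G) (x : G), hxm⟩ :
          pPrimeCore p (G ⧸ pPrimeCore p G))
      rwa [h4] at h5
  have hKle := Cfsg.Agent.Lib.Helper75.SelfCentCore.le_pPrimeCore hp hKn hKc
  rw [eq_bot_iff]
  intro x hx
  obtain ⟨g, rfl⟩ := QuotientGroup.mk'_surjective (pPrimeCore p G) x
  have h1 : g ∈ pPrimeCore p G := hKle hx
  exact (QuotientGroup.eq_one_iff (N := pPrimeCore p G) g).2 h1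

theorem main : Cfsg.Agent.Lib.Helper16.BFStmt.Red.{u} := by
  intro G _ _ hperf p _ P hP n hn
  have hp : p.Prime := Fact.out
  refine ⟨Cfsg.Agent.Lib.Helper33.BRW2.perfect_quotient (pPrimeCore p G) hperf,
    core_quot_bot p, ?_⟩
  have hs : Function.Surjective (QuotientGroup.mk' (pPrimeCore p G)) :=
    QuotientGroup.mk'_surjective (pPrimeCore p G)
  have hHc : ¬ p ∣ Nat.card (pPrimeCore p G) :=
    Cfsg.Agent.Lib.Helper75.SelfCentCore.pPrimeCore_not_dvd G hp
  have hGH : Nat.card G = Nat.card (G ⧸ pPrimeCore p G) * Nat.card (pPrimeCore p G) :=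
    Subgroup.card_eq_card_quotient_mul_card_subgroup (pPrimeCore p G)
  have hQc : Nat.card ((P.mapSurjective hs : Sylow p (G ⧸ pPrimeCore p G)) :
      Subgroup (G ⧸ pPrimeCore p G)) = p := by
    have h1 := Sylow.card_eq_multiplicity (P.mapSurjective hs)
    have h2 := Sylow.card_eq_multiplicity P
    have h3 : (Nat.card G).factorization p = (Nat.card (G ⧸ pPrimeCore p G)).factorization p := by
      rw [hGH, Nat.factorization_mul Nat.card_pos.ne' Nat.card_pos.ne']
      simp [Nat.factorization_eq_zero_of_not_dvd hHc]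
    rw [h1, ← h3, ← h2]; exact hP
  have h1 : Nat.card (Sylow p (G ⧸ pPrimeCore p G)) ≡ 1 [MOD p] :=
    card_sylow_modEq_one p (G ⧸ pPrimeCore p G)
  have hdvd : Nat.card (Sylow p (G ⧸ pPrimeCore p G)) ∣ Nat.card (Sylow p G) := by
    rw [Sylow.card_eq_index_normalizer (P.mapSurjective hs), Sylow.card_eq_index_normalizer P]
    have hle : Subgroup.normalizer ((P : Subgroup G) : Set G) ≤
        (Subgroup.normalizer (((P.mapSurjective hs : Sylow p (G ⧸ pPrimeCore p G)) :
          Subgroup (G ⧸ pPrimeCore p G)) : Set (G ⧸ pPrimeCore p G))).comap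
          (QuotientGroup.mk' (pPrimeCore p G)) := by
      rw [← Subgroup.map_le_iff_le_comap, Sylow.coe_mapSurjective]
      exact Subgroup.le_normalizer_map _
    have h2 := Subgroup.index_dvd_of_le hle
    rwa [Subgroup.index_comap_of_surjective _ hs] at h2
  have hpos : 0 < Nat.card (Sylow p (G ⧸ pPrimeCore p G)) := Nat.card_pos
  -- write the two numbers
  obtain ⟨n', hn'⟩ : ∃ n' : ℕ, Nat.card (Sylow p (G ⧸ pPrimeCore p G)) = 1 + n' * p := by
    have h3 : (Nat.card (Sylow p (G ⧸ pPrimeCore p G)) - 1) % p = 0 := by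
      have h4 := (Nat.modEq_iff_dvd' (by omega : 1 ≤ Nat.card (Sylow p (G ⧸ pPrimeCore p G)))).1
        h1.symm
      exact Nat.mod_eq_zero_of_dvd h4
    refine ⟨(Nat.card (Sylow p (G ⧸ pPrimeCore p G)) - 1) / p, ?_⟩
    have h5 := Nat.div_add_mod (Nat.card (Sylow p (G ⧸ pPrimeCore p G)) - 1) p
    rw [h3] at h5
    have h6 : (Nat.card (Sylow p (G ⧸ pPrimeCore p G)) - 1) / p * p =
        Nat.card (Sylow p (G ⧸ pPrimeCore p G)) - 1 := by
      rw [mul_comm]; omega
    omega
  obtain ⟨k, hk⟩ := hdvd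
  rw [hn, hn'] at hk
  -- `k ≡ 1 (mod p)`
  have hk1 : k % p = 1 := by
    have h3 : (1 + n * p) % p = ((1 + n' * p) * k) % p := by rw [hk]
    rw [Nat.mul_mod, Nat.add_mul_mod_self_right, Nat.add_mul_mod_self_right] at h3
    have h4 : 1 % p = 1 := Nat.mod_eq_of_lt hp.one_lt
    rw [h4, one_mul, Nat.mod_mod] at h3
    exact h3.symm
  refine ⟨P.mapSurjective hs, n', k / p, hQc, hn', ?_⟩
  have h5 := Nat.div_add_mod k p
  rw [hk1] at h5
  have h6 : 1 + k / p * p = k := by rw [mul_comm]; omega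
  rw [h6]; exact hk

end Cfsg.Agent.Lib.Helper76.BFRED
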