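import Mathlib
import Cfsg.Agent.Lib.Helper73.BG14Stmt

set_option autoImplicit false

/-!
helper76: piece SUPPEQ of S1375 (helper73's call): the value of `R(x) = supportR M x` for
`x ∈ M_σ`, `x ≠ 1`, from GEN and FH.
-/

namespace Cfsg.Agent.Lib.Helper76.BG14SUPPEQ

universe u

theorem main : Cfsg.Agent.Lib.Helper73.BG14Stmt.Gen.{u} → Cfsg.Agent.Lib.Helper73.BG14Stmt.FH.{u} →
    Cfsg.Agent.Lib.Helper73.BG14Stmt.SuppEq.{u} := by
  intro hGen hFH G _ _ hG M hM x hx hx1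
  constructor
  · intro hC
    unfold Cfsg.supportR
    rw [dif_neg]
    intro h
    exact h.1 hC
  · intro hC N hN hCN
    obtain ⟨N0, hN0, hCN0, huniq, -, -, hnil, -, -⟩ := hGen hG M hM x hx hx1 hC
    have hNN0 : N = N0 := huniq N hN hCN
    have hex : ∃! L : Subgroup G, IsCoatom L ∧ Subgroup.centralizer ({x} : Set G) ≤ L :=
      ⟨N0, ⟨hN0, hCN0⟩, fun L hL => huniq L hL.1 hL.2⟩
    have h : ¬ Subgroup.centralizer ({x} : Set G) ≤ M ∧
        ∃! L : Subgroup G, IsCoatom L ∧ Subgroup.centralizer ({x} : Set G) ≤ L := ⟨hC, hex⟩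
    unfold Cfsg.supportR
    rw [dif_pos h]
    have hL := Classical.choose_spec h.2.exists
    have hL0 : Classical.choose h.2.exists = N0 := huniq _ hL.1 hL.2
    rw [hL0, hNN0, ← hFH hG N0 hN0 hnil]

example : Cfsg.Agent.Lib.Helper73.BG14Stmt.Gen.{u} → Cfsg.Agent.Lib.Helper73.BG14Stmt.FH.{u} →
    Cfsg.Agent.Lib.Helper73.BG14Stmt.SuppEq.{u} := main

end Cfsg.Agent.Lib.Helper76.BG14SUPPEQ

#print axioms Cfsg.Agent.Lib.Helper76.BG14SUPPEQ.main
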