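import Mathlib
import Cfsg.Agent.Lib.Helper80.BTStmt
import Cfsg.Agent.Lib.CT.Knorr
import Cfsg.Agent.Lib.CT.Wedderburn
import Cfsg.Agent.Lib.Helper16.ZR

/-!
# S0997 piece BND (second seat): the bound `2^b ≤ p g₀ (e - 1)`
-/

set_option autoImplicit false

namespace Cfsg.Agent.Lib.Helper76.BTBND

open Cfsg Cfsg.Agent.Lib.Helper80.BTStmt
open scoped ComplexConjugate

universe u

theorem main (h1 : CINV.{u}) (h2 : VAN.{u}) (h3 : NIB.{u}) (h4 : BTO.{u}) (h5 : GB.{u}) :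
    BND.{u} := by
  intro G _ _ p b g₀ hyp c hXF hYF hT2 hLoc hPow
  classical
  obtain ⟨hsimple, hncyc, hp, -, hp2, hcard, hg₀⟩ := hyp
  obtain ⟨⟨t, htX, ht1⟩, -⟩ := hXF
  obtain ⟨⟨θ₀, hθ₀⟩, hYfacts⟩ := hYF
  obtain ⟨-, χ₀, hχ₀X, hχ₀nt, a, ha, hχ₀deg⟩ := hPow
  obtain ⟨hsing, -⟩ := hLoc
  haveI : Fact p.Prime := ⟨hp⟩
  haveI : Fact (2 : ℕ).Prime := ⟨Nat.prime_two⟩
  haveI := Cfsg.Agent.Lib.CT.Wedderburn.finite_irrCharacter G
  haveI : Fintype (IrrCharacter G) := Fintype.ofFinite _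
  have hXfin : c.X.Finite := Set.toFinite _
  have hXcard : hXfin.toFinset.card = c.e := by
    rw [← c.hX, Nat.card_coe_set_eq, Set.ncard_eq_toFinset_card c.X hXfin]
  have hte : t ≠ χ₀ := by
    intro h
    apply hχ₀nt
    rw [← h]
    exact ht1
  have htXf : t ∈ hXfin.toFinset := hXfin.mem_toFinset.2 htX
  have hχ₀Xf : χ₀ ∈ hXfin.toFinset := hXfin.mem_toFinset.2 hχ₀X
  -- `2 ≤ e`
  have he2 : 2 ≤ c.e := by
    rw [← hXcard]
    have hsub : ({t, χ₀} : Finset (IrrCharacter G)) ⊆ hXfin.toFinset := by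
      intro ψ hψ
      rw [Finset.mem_insert, Finset.mem_singleton] at hψ
      rcases hψ with rfl | rfl
      · exact htXf
      · exact hχ₀Xf
    have := Finset.card_le_card hsub
    rwa [Finset.card_pair hte] at this
  -- `e ≤ p - 1`
  have hep : c.e ≤ p - 1 := by
    by_contra hlt
    rw [not_le] at hlt
    have h0 : Nat.card c.Y = 0 := by
      rw [c.hY]
      exact Nat.div_eq_of_lt hlt
    haveI : Nonempty c.Y := ⟨⟨θ₀, hθ₀⟩⟩
    exact (Nat.card_pos (α := c.Y)).ne' h0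
  have hGpos : 0 < Nat.card G := Nat.card_pos
  have hg₀pos : 0 < g₀ := by
    rcases Nat.eq_zero_or_pos g₀ with h | h
    · rw [hcard, h, Nat.mul_zero] at hGpos
      exact absurd hGpos (lt_irrefl 0)
    · exact h
  rcases Nat.eq_zero_or_pos b with hb0 | hbpos
  · rw [hb0, pow_zero]
    have h1' : 1 ≤ c.e - 1 := by omega
    have h2' : 1 ≤ p := hp.one_lt.le
    calc 1 = 1 * 1 * 1 := by norm_num
      _ ≤ p * g₀ * (c.e - 1) := Nat.mul_le_mul (Nat.mul_le_mul h2' hg₀pos) h1'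
  -- an involution of odd class size
  have h2card : 2 ∣ Nat.card G := by
    rw [hcard]
    exact Dvd.dvd.mul_right (Dvd.dvd.mul_left (dvd_pow_self 2 hbpos.ne') p) g₀
  have hbdvd : 2 ^ b ∣ Nat.card G := by
    rw [hcard]
    exact Dvd.dvd.mul_right (Dvd.intro_left p rfl) g₀
  obtain ⟨z, hz, hodd⟩ := h1 (G := G) h2card
  have hz1 : z ≠ 1 := by
    rintro rfl
    rw [orderOf_one] at hz
    exact absurd hz (by norm_num)
  have hχ₀z : (χ₀ : G → ℂ) z = 0 := h2 hsimple hncyc χ₀ a ha hχ₀deg z hz1 hodd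
  obtain ⟨M2, hM2⟩ := Cfsg.Agent.Lib.CT.Knorr.exists_isPModular 2 Nat.prime_two
  have hM2p : M2.IsPrime := hM2.2.1.isPrime
  have hnot : ∀ ψ : IrrCharacter G, Odd (charDegree (ψ : G → ℂ)) →
      ψ ∉ blockOf M2 (χ₀ : G → ℂ) := fun ψ hψ => h3 M2 hM2 χ₀ ψ z hz hodd hχ₀z hψ
  have htdeg : charDegree (t : G → ℂ) = 1 := by
    rw [ht1]
    simp [charDegree]
  have htB : t ∉ blockOf M2 (χ₀ : G → ℂ) := hnot t (by rw [htdeg]; exact odd_one)
  have hYB : ∀ θ ∈ c.Y, θ ∉ blockOf M2 (χ₀ : G → ℂ) := fun θ hθ =>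
    hnot θ (Nat.not_even_iff_odd.1 (fun h => (hYfacts θ hθ).1 (even_iff_two_dvd.1 h)))
  have hχ₀B : χ₀ ∈ blockOf M2 (χ₀ : G → ℂ) := Cfsg.Agent.Lib.Helper16.ZR.mem_blockOf_self hM2p χ₀
  -- the set `S = X ∩ B'`
  set S : Finset (IrrCharacter G) :=
    hXfin.toFinset.filter (fun χ => χ ∈ blockOf M2 (χ₀ : G → ℂ)) with hS
  have hSX : ∀ χ ∈ S, χ ∈ c.X := fun χ hχ => hXfin.mem_toFinset.1 (Finset.mem_filter.1 hχ).1
  have hχ₀S : χ₀ ∈ S := Finset.mem_filter.2 ⟨hχ₀Xf, hχ₀B⟩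
  have hScard1 : 1 ≤ S.card := Finset.card_pos.2 ⟨χ₀, hχ₀S⟩
  have hScard2 : S.card ≤ c.e - 1 := by
    have hsub : S ⊆ hXfin.toFinset.erase t := by
      intro χ hχ
      rw [Finset.mem_erase]
      refine ⟨?_, (Finset.mem_filter.1 hχ).1⟩
      rintro rfl
      exact htB (Finset.mem_filter.1 hχ).2
    have := Finset.card_le_card hsub
    rwa [Finset.card_erase_of_mem htXf, hXcard] at this
  -- an element of order `p`
  have hPcard : 1 < Nat.card (c.P : Subgroup G) := by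
    rw [c.hP]
    exact hp.one_lt
  haveI : Nontrivial (c.P : Subgroup G) := Finite.one_lt_card_iff_nontrivial.1 hPcard
  obtain ⟨x, hx⟩ := exists_ne (1 : (c.P : Subgroup G))
  have hx1 : (x : G) ≠ 1 := fun h => hx (Subtype.ext h)
  have hxord : orderOf (x : G) = p := by
    have hd : orderOf x ∣ p := by
      have hd' := orderOf_dvd_natCard x
      rwa [c.hP] at hd'
    rw [Subgroup.orderOf_coe]
    rcases (Nat.dvd_prime hp).1 hd with h | h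
    · exact absurd (orderOf_eq_one_iff.1 h) hx
    · exact h
  have hpx : p ∣ orderOf (x : G) := by rw [hxord]
  have hcond : ∀ g : G, ¬ p ∣ orderOf g ∨ ¬ 2 ∣ orderOf g := by
    intro g
    by_cases hg : p ∣ orderOf g
    · right
      rw [hsing g hg]
      intro h2p
      exact hp2 ((Nat.prime_dvd_prime_iff_eq Nat.prime_two hp).1 h2p).symm
    · left
      exact hg
  have hB : IsPBlock c.M (principalBlock c.M G) := ⟨t, by unfold principalBlock; rw [ht1]⟩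
  have hB' : IsPBlock M2 (blockOf M2 (χ₀ : G → ℂ)) := ⟨χ₀, rfl⟩
  have hset : principalBlock c.M G ∩ blockOf M2 (χ₀ : G → ℂ) = (S : Set (IrrCharacter G)) := by
    ext χ
    rw [c.hXY, hS, Finset.coe_filter]
    simp only [Set.mem_inter_iff, Set.mem_union, Set.Finite.mem_toFinset, Set.mem_ofPred_eq]
    constructor
    · rintro ⟨hχ | hχ, hχB⟩
      · exact ⟨hχ, hχB⟩
      · exact absurd hχB (hYB χ hχ)
    · rintro ⟨hχ, hχB⟩
      exact ⟨Or.inl hχ, hχB⟩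
  have horth : ∀ y : G, 2 ∣ orderOf y → ∑ χ ∈ S, (c.εX χ : ℂ) * (χ : G → ℂ) y = 0 := by
    intro y hy
    have h := h4 p 2 c.M M2 c.hM hM2 hcond (principalBlock c.M G) (blockOf M2 (χ₀ : G → ℂ))
      hB hB' (x : G) y hpx hy
    rw [hset, finsum_mem_coe_finset] at h
    refine Eq.trans ?_ h
    apply Finset.sum_congr rfl
    intro χ hχ
    have hv := (c.hεX χ (hSX χ hχ)).2.2 (x : G) x.2 hx1 1 (one_mem _) (by
      rw [orderOf_one]
      exact fun h => hp.one_lt.ne' (Nat.dvd_one.1 h))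
    rw [mul_one] at hv
    rw [hv]
    simp
  obtain ⟨hdvd, hsq⟩ := h5 (G := G) b hbdvd S c.εX (fun χ hχ => (c.hεX χ (hSX χ hχ)).1) horth
  -- `D ≡ card S (mod p)`
  have hDmod : (p : ℤ) ∣ (∑ χ ∈ S, c.εX χ * (charDegree (χ : G → ℂ) : ℤ)) - (S.card : ℤ) := by
    have hrew : (∑ χ ∈ S, c.εX χ * (charDegree (χ : G → ℂ) : ℤ)) - (S.card : ℤ) =
        ∑ χ ∈ S, (c.εX χ * (charDegree (χ : G → ℂ) : ℤ) - 1) := by
      rw [Finset.sum_sub_distrib]
      simp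
    rw [hrew]
    apply Finset.dvd_sum
    intro χ hχ
    obtain ⟨hpm, hmod, -⟩ := c.hεX χ (hSX χ hχ)
    have h := Int.ModEq.mul_left (c.εX χ) hmod
    have h' : c.εX χ * c.εX χ = 1 := by
      rcases hpm with h | h <;> rw [h] <;> norm_num
    rw [h'] at h
    exact Int.modEq_iff_dvd.1 h.symm
  have hD0 : (∑ χ ∈ S, c.εX χ * (charDegree (χ : G → ℂ) : ℤ)) ≠ 0 := by
    intro h0
    rw [h0, zero_sub, dvd_neg, Int.natCast_dvd_natCast] at hDmod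
    have := Nat.le_of_dvd (by omega) hDmod
    have hp1 : 1 ≤ p := hp.one_lt.le
    omega
  obtain ⟨m, hm⟩ := hdvd
  have hm0 : m ≠ 0 := by
    rintro rfl
    rw [mul_zero] at hm
    exact hD0 hm
  have hm1 : 1 ≤ m ^ 2 := by
    have : 0 < m ^ 2 := by positivity
    omega
  have key : ((2 : ℤ) ^ b) ^ 2 ≤ ((p * 2 ^ b * g₀ : ℕ) : ℤ) * ((c.e - 1 : ℕ) : ℤ) := by
    have hS' : (S.card : ℤ) ≤ ((c.e - 1 : ℕ) : ℤ) := by exact_mod_cast hScard2
    have hG' : (0 : ℤ) ≤ ((p * 2 ^ b * g₀ : ℕ) : ℤ) := Int.natCast_nonneg _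
    rw [hm, hcard] at hsq
    have h22 : (0 : ℤ) ≤ ((2 : ℤ) ^ b) ^ 2 := by positivity
    calc ((2 : ℤ) ^ b) ^ 2 = ((2 : ℤ) ^ b) ^ 2 * 1 := by ring
      _ ≤ ((2 : ℤ) ^ b) ^ 2 * m ^ 2 := mul_le_mul_of_nonneg_left hm1 h22
      _ = ((2 : ℤ) ^ b * m) ^ 2 := by ring
      _ ≤ ((p * 2 ^ b * g₀ : ℕ) : ℤ) * (S.card : ℤ) := hsq
      _ ≤ ((p * 2 ^ b * g₀ : ℕ) : ℤ) * ((c.e - 1 : ℕ) : ℤ) := mul_le_mul_of_nonneg_left hS' hG'
  have key' : (2 ^ b) ^ 2 ≤ (p * 2 ^ b * g₀) * (c.e - 1) := by exact_mod_cast key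
  have h2b : 0 < 2 ^ b := by positivity
  apply Nat.le_of_mul_le_mul_left _ h2b
  calc 2 ^ b * 2 ^ b = (2 ^ b) ^ 2 := by ring
    _ ≤ (p * 2 ^ b * g₀) * (c.e - 1) := key'
    _ = 2 ^ b * (p * g₀ * (c.e - 1)) := by ring

#print axioms main

end Cfsg.Agent.Lib.Helper76.BTBND
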