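import Mathlib
import Cfsg.Agent.Lib.Helper80.BTStmt
import Cfsg.Agent.S4729

/-!
# S0997 piece SC (second seat): `C_G(P) = P` and its consequences
-/

set_option autoImplicit false

namespace Cfsg.Agent.Lib.Helper76.BTSC

open Cfsg Cfsg.Agent.Lib.Helper80.BTStmt
open scoped commutatorElement Pointwise

universe u

theorem main : SC.{u} := by
  intro G _ _ p q b g₀ hyp c hYF hT2
  classical
  obtain ⟨hsimple, hncyc, hp, -, -, hcard, hg₀⟩ := hyp
  obtain ⟨⟨θ, hθ⟩, hYfacts⟩ := hYF
  obtain ⟨-, hfdvd, -, hfaith⟩ := hYfacts θ hθ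
  haveI : Fact p.Prime := ⟨hp⟩
  haveI := hsimple
  -- `G` is perfect
  have hperf : commutator G = ⊤ := by
    rcases (inferInstance : (commutator G).Normal).eq_bot_or_eq_top with h | h
    · exfalso
      apply hncyc
      have hcomm : ∀ a b : G, a * b = b * a := by
        intro a b
        have hab : ⁅a, b⁆ ∈ commutator G :=
          Subgroup.commutator_mem_commutator (Subgroup.mem_top a) (Subgroup.mem_top b)
        rw [h, Subgroup.mem_bot, commutatorElement_eq_one_iff_mul_comm] at hab
        exact hab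
      let _ : CommGroup G := { ‹Group G› with mul_comm := hcomm }
      infer_instance
    · exact h
  have hGpos : 0 < Nat.card G := Nat.card_pos
  have hg₀pos : 0 < g₀ := by
    rcases Nat.eq_zero_or_pos g₀ with h | h
    · rw [hcard, h, Nat.mul_zero] at hGpos
      exact absurd hGpos (lt_irrefl 0)
    · exact h
  have hdeg : charDegree (θ : G → ℂ) < 2 * p := by
    have := Nat.le_of_dvd hg₀pos hfdvd
    omega
  have hθB : θ ∈ principalBlock c.M G := by
    rw [c.hXY]
    exact Or.inr hθ
  have hCp := Cfsg.Agent.S4729.result p c.M c.hM hperf c.P θ hθB hfaith hdeg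
  -- `P` is abelian
  haveI hPcyc : IsCyclic (c.P : Subgroup G) := isCyclic_of_prime_card c.hP
  have hPle : (c.P : Subgroup G) ≤ Subgroup.centralizer ((c.P : Subgroup G) : Set G) := by
    intro a ha
    rw [Subgroup.mem_centralizer_iff]
    intro b hb
    have hIC := IsCyclic.isMulCommutative (α := (c.P : Subgroup G))
    have hc : (⟨b, hb⟩ : (c.P : Subgroup G)) * ⟨a, ha⟩ = ⟨a, ha⟩ * ⟨b, hb⟩ := mul_comm' _ _
    exact congrArg Subtype.val hc
  have hCP : Subgroup.centralizer ((c.P : Subgroup G) : Set G) = (c.P : Subgroup G) :=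
    c.P.3 hCp hPle
  refine ⟨?_, ?_⟩
  · intro g hg
    have hn0 : orderOf g ≠ 0 := (orderOf_pos g).ne'
    have hyord : orderOf (g ^ (orderOf g / p)) = p := orderOf_pow_orderOf_div hn0 hg
    have hyP : IsPGroup p (Subgroup.zpowers (g ^ (orderOf g / p))) :=
      IsPGroup.of_card (n := 1) (by rw [Nat.card_zpowers, hyord, pow_one])
    obtain ⟨Q, hQ⟩ := hyP.exists_le_sylow
    obtain ⟨h, hh⟩ := MulAction.exists_smul_eq G Q c.P
    have hconjy : orderOf (h * g ^ (orderOf g / p) * h⁻¹) = p := by
      rw [← MulAut.conj_apply, MulEquiv.orderOf_eq]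
      exact hyord
    have hy' : h * g ^ (orderOf g / p) * h⁻¹ ∈ (c.P : Subgroup G) := by
      rw [← hh, Sylow.coe_subgroup_smul, Subgroup.mem_pointwise_smul_iff_inv_smul_mem]
      have hrew : (MulAut.conj h)⁻¹ • (h * g ^ (orderOf g / p) * h⁻¹) = g ^ (orderOf g / p) := by
        rw [MulAut.smul_def, MulAut.conj_inv_apply]
        group
      rw [hrew]
      exact hQ (Subgroup.mem_zpowers _)
    have hzP : Subgroup.zpowers (h * g ^ (orderOf g / p) * h⁻¹) = (c.P : Subgroup G) := by
      apply Subgroup.eq_of_le_of_card_ge ((Subgroup.zpowers_le).2 hy')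
      rw [Nat.card_zpowers, hconjy, c.hP]
    have hg' : h * g * h⁻¹ ∈ Subgroup.centralizer ((c.P : Subgroup G) : Set G) := by
      rw [← hzP, Subgroup.mem_centralizer_iff]
      intro u hu
      obtain ⟨k, rfl⟩ := Subgroup.mem_zpowers_iff.1 hu
      have hc : Commute (h * g * h⁻¹) (h * g ^ (orderOf g / p) * h⁻¹) := by
        have hpw : h * g ^ (orderOf g / p) * h⁻¹ = (h * g * h⁻¹) ^ (orderOf g / p) := by
          rw [conj_pow]
        rw [hpw]
        exact Commute.pow_right (Commute.refl _) _
      exact (hc.zpow_right k).eq.symm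
    rw [hCP] at hg'
    have hd : orderOf (h * g * h⁻¹) ∣ p := by
      have hd' := orderOf_dvd_natCard (⟨h * g * h⁻¹, hg'⟩ : (c.P : Subgroup G))
      rw [c.hP, ← Subgroup.orderOf_coe] at hd'
      exact hd'
    have hconj : orderOf (h * g * h⁻¹) = orderOf g := by
      rw [← MulAut.conj_apply, MulEquiv.orderOf_eq]
    rw [hconj] at hd
    exact Nat.dvd_antisymm hd hg
  · have hS : Nat.card (Sylow p G) =
        (Subgroup.normalizer ((c.P : Subgroup G) : Set G)).index :=
      Sylow.card_eq_index_normalizer c.P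
    rw [hS]
    have hle := Subgroup.centralizer_le_normalizer ((c.P : Subgroup G) : Set G)
    have h1 := Subgroup.relIndex_mul_index hle
    rw [c.he] at h1
    have h2 := Subgroup.card_mul_index (Subgroup.centralizer ((c.P : Subgroup G) : Set G))
    have hCcard : Nat.card (Subgroup.centralizer ((c.P : Subgroup G) : Set G)) = p := by
      rw [hCP]
      exact c.hP
    rw [hCcard, ← h1] at h2
    rw [← h2]
    ring

#print axioms main

end Cfsg.Agent.Lib.Helper76.BTSC
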