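import Mathlib
import Cfsg.Prelude.Def_Characters
import Cfsg.Prelude.Def_Blocks
import Cfsg.Agent.Lib.Helper76.BrRBStmt

/-!
# S4504, part R: one more piece (the normal closure of `P` is perfect)
-/

set_option autoImplicit false

namespace Cfsg.Agent.Lib.Helper76.BrRB

open Cfsg
open scoped ComplexConjugate Classical

universe u

/-- the normal closure of `P` is perfect. -/
def PERF : Prop :=
  ∀ {G : Type u} [Group G] [Finite G] (p : ℕ) [Fact p.Prime] (P : Sylow p G),
    Nat.card (P : Subgroup G) = p → ¬ (P : Subgroup G).Normal →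
    ∀ χ : G → ℂ, IsCharacter G χ → (∀ g : G, χ g = χ 1 → g = 1) → 2 * charDegree χ + 1 = p →
    commutator ↥(Subgroup.normalClosure ((P : Subgroup G) : Set G)) = ⊤

end Cfsg.Agent.Lib.Helper76.BrRB
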