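import Mathlib
import Cfsg.Prelude.Def_Characters
import Cfsg.Prelude.Def_Blocks
import Cfsg.Agent.Lib.Lead.BrHalfStmt
import Cfsg.Agent.Lib.Lead.BrHalfDStmt
import Cfsg.Agent.Lib.Helper76.BrRBStmt
import Cfsg.Agent.Lib.Helper76.BrRBStmt2
import Cfsg.Agent.Lib.Helper1.BrR1

/-!
# S4504, parts R and B: assembly of the pieces into lead's `Red`
-/

set_option autoImplicit false
set_option linter.style.haveILetI false

namespace Cfsg.Agent.Lib.Helper76.BrRBAsm

open Cfsg Cfsg.Agent.Lib.Helper76.BrRB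
open scoped ComplexConjugate Classical

universe u

/-- The `L`-level assembly: a context of part C from a context of parts R and B. -/
theorem ctx_of (hORB : ORB.{u}) (hRES : RES.{u}) (hPHI : PHI.{u}) (hHA : HA.{u})
    (hEXC : EXC.{u}) (hSUM : SUM.{u}) (hHBF : HBF.{u}) (hVZ : VZ.{u}) (hHC : HC.{u})
    {L : Type u} [Group L] [Fintype L] (p : ℕ) [Fact p.Prime] (c : RCtx L p) :
    ∃ c' : Cfsg.Agent.Lib.Lead.BrHalf.Ctx L p, c'.ξ = c.ξ := by
  have hp : p.Prime := Fact.out
  obtain ⟨hrel, S, ψ₀, hOrb⟩ := hORB p c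
  -- an element `x ≠ 1` of `P`
  obtain ⟨x, hx, hx1⟩ : ∃ x : L, x ∈ (c.P : Subgroup L) ∧ x ≠ 1 := by
    have hnt : Nontrivial ↥(c.P : Subgroup L) := by
      rw [← Finite.one_lt_card_iff_nontrivial, c.hP]
      exact hp.one_lt
    obtain ⟨u, hu⟩ := exists_ne (1 : ↥(c.P : Subgroup L))
    exact ⟨(u : L), u.2, fun h => hu (Subtype.ext h)⟩
  obtain ⟨ζ, hζ, hres⟩ := hRES p c S ψ₀ hOrb hrel x hx hx1
  have hPhi := hPHI p c S ψ₀ hOrb hrel
  have hA := hHA p c hPhi
  have hExc := hEXC p c hrel hA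
  have hPhi1 : sP c.P (fun g => c.ξ g * conj (c.ξ g)) = (p : ℂ) * (charDegree c.ξ : ℂ) := by
    have h := hPhi 1 (Subgroup.one_mem _)
    unfold sPt at h
    unfold sP
    simpa using h
  have hSum := hSUM p c hPhi1
  have hB := hHBF p c hExc hSum hA
  have hV := hVZ p c hB
  have hC := hHC p c hV x hx hx1
  exact ⟨{ hp5 := c.hp5
           P := c.P
           hP := c.hP
           x := x
           hx := hx
           hx1 := hx1
           hC := hC
           ξ := c.ξ
           hξ := c.hξ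
           hfaith := c.hfaith
           hdeg := c.hdeg
           ζ := ζ
           hζ := hζ
           hres := hres
           hB := fun ψ hnt hm => (hB ψ hnt hm).1
           hB2 := fun ψ hnt hm => (hB ψ hnt hm).2.1 }, rfl⟩

/-- The reduction `Red` of S4504 from the pieces. -/
theorem red_of (hP5 : P5.{u}) (hR1 : R1.{u}) (hNN : NN.{u}) (hPERF : PERF.{u})
    (hORB : ORB.{u}) (hRES : RES.{u}) (hPHI : PHI.{u}) (hHA : HA.{u})
    (hEXC : EXC.{u}) (hSUM : SUM.{u}) (hHBF : HBF.{u}) (hVZ : VZ.{u}) (hHC : HC.{u}) :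
    Cfsg.Agent.Lib.Lead.BrHalf.Red.{u} := by
  intro G _ _ p _ hdiv hsq hnn χ hχ hfaith hdeg
  have hp : p.Prime := Fact.out
  obtain ⟨P⟩ : Nonempty (Sylow p G) := inferInstance
  have hG0 : Nat.card G ≠ 0 := Nat.card_pos.ne'
  have hν : (Nat.card G).factorization p = 1 := by
    have h1 : 1 ≤ (Nat.card G).factorization p :=
      (hp.pow_dvd_iff_le_factorization hG0).mp (by rw [pow_one]; exact hdiv)
    have h2 : ¬ 2 ≤ (Nat.card G).factorization p := fun h =>
      hsq ((hp.pow_dvd_iff_le_factorization hG0).mpr h)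
    omega
  have hP : Nat.card P = p := by
    have h := P.card_eq_multiplicity
    rw [hν, pow_one] at h
    exact h
  have hPnn : ¬ (P : Subgroup G).Normal := fun h => hnn (P : Subgroup G) h hP
  refine ⟨P, ?_⟩
  intro _
  have hle : (P : Subgroup G) ≤ Subgroup.normalClosure ((P : Subgroup G) : Set G) :=
    Subgroup.le_normalClosure
  have hQcard : Nat.card (P.subtype hle : Sylow p ↥(Subgroup.normalClosure
      ((P : Subgroup G) : Set G))) = p := by
    have e : Nat.card ↥((P : Subgroup G).subgroupOf (Subgroup.normalClosure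
        ((P : Subgroup G) : Set G))) = Nat.card ↥(P : Subgroup G) :=
      Nat.card_congr (Subgroup.subgroupOfEquivOfLe hle).toEquiv
    exact e.trans hP
  have hgenQ := Cfsg.Agent.Lib.Helper1.BrR1.normalClosure_subtype_eq_top p P hle
  refine ⟨hPERF p P hP hPnn χ hχ hfaith hdeg, ?_⟩
  let c : RCtx ↥(Subgroup.normalClosure ((P : Subgroup G) : Set G)) p :=
    { hp5 := hP5 p P hPnn χ hχ hfaith hdeg
      P := P.subtype hle
      hP := hQcard
      hgen := hgenQ
      hnn := fun h => hPnn (hNN p P hle h)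
      ξ := fun l : ↥(Subgroup.normalClosure ((P : Subgroup G) : Set G)) => χ (l : G)
      hξ := hR1 p P hP hPnn χ hχ hfaith hdeg
      hfaith := fun l h => Subtype.ext (hfaith _ h)
      hdeg := hdeg }
  obtain ⟨c', hc'⟩ := ctx_of hORB hRES hPHI hHA hEXC hSUM hHBF hVZ hHC p c
  exact ⟨c', hc'⟩

end Cfsg.Agent.Lib.Helper76.BrRBAsm
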