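import Mathlib
import Cfsg.Agent.Lib.Helper26.J3Stmt
import Cfsg.Agent.S0246

/-!
# S3366 piece CON5: the centre of `Sp(4,3)` is `±1` and meets the stabilizer trivially.
-/

set_option autoImplicit false

namespace Cfsg.Agent.Lib.Helper76.J3CON5

open Cfsg.Agent.Lib.Helper26.J3Stmt

theorem sq_one_zmod3 : ∀ a : ZMod 3, a ^ 2 = 1 → a = 1 ∨ a = -1 := by decide

theorem main : CON5 := by
  intro g hg
  obtain ⟨a, ha, hga⟩ := Cfsg.Agent.S0246.center_scalar 2 (by norm_num) g hg
  rcases sq_one_zmod3 a ha with h1 | h1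
  · subst h1
    rw [one_smul] at hga
    refine ⟨Or.inl hga, fun _ => ?_⟩
    apply Subtype.ext
    rw [hga]
    rfl
  · subst h1
    have hga' : (g : Mat) = -1 := by rw [hga]; simp
    refine ⟨Or.inr hga', fun hP => ?_⟩
    exfalso
    have h2 := hP (Sum.inl 0)
    rw [hga'] at h2
    simp at h2
    revert h2
    decide

#print axioms main

end Cfsg.Agent.Lib.Helper76.J3CON5
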