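import Mathlib

/-!
Arithmetic for Brauer's Klein-four order formula in a group of order `4 p^a q^b`:
the degrees of the three nontrivial characters of the principal `2`-block are `5, 3, 3`.
-/

set_option autoImplicit false

namespace Cfsg.Agent.Lib.Helper76.KleinArith

theorem prime_dvd_cases {p q a b s : ℕ} (hp : p.Prime) (hq : q.Prime) (hs : s.Prime)
    (h : s ∣ 4 * p ^ a * q ^ b) : s = 2 ∨ s = p ∨ s = q := by
  rcases (Nat.Prime.dvd_mul hs).mp h with h | h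
  · rcases (Nat.Prime.dvd_mul hs).mp h with h | h
    · left
      have h4 : s ∣ 2 ^ 2 := by norm_num; exact h
      exact (Nat.prime_dvd_prime_iff_eq hs Nat.prime_two).mp (hs.dvd_of_dvd_pow h4)
    · right; left; exact (Nat.prime_dvd_prime_iff_eq hs hp).mp (hs.dvd_of_dvd_pow h)
  · right; right; exact (Nat.prime_dvd_prime_iff_eq hs hq).mp (hs.dvd_of_dvd_pow h)

theorem pow_add_pow_lt {Q γ d β : ℕ} (hQ : Q.Prime) (hQ2 : Q ≠ 2) (hd : 0 < d)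
    (h : Q ^ γ + Q ^ (γ + d) = 2 * Q ^ β) : False := by
  have hQ3 : 3 ≤ Q := by have := hQ.two_le; omega
  have hQd : 3 ≤ Q ^ d := le_trans hQ3 (Nat.le_self_pow hd.ne' Q)
  have h1 : Q ^ γ * (1 + Q ^ d) = 2 * Q ^ β := by rw [← h]; ring
  rcases le_or_gt β γ with hle | hlt
  · obtain ⟨e, rfl⟩ := Nat.exists_eq_add_of_le hle
    have h2 : Q ^ β * (Q ^ e * (1 + Q ^ d)) = Q ^ β * 2 := by
      rw [← mul_assoc, ← pow_add, h1]; ring
    have h3 := Nat.eq_of_mul_eq_mul_left (pow_pos hQ.pos β) h2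
    have h4 : 1 ≤ Q ^ e := Nat.one_le_pow _ _ hQ.pos
    nlinarith
  · obtain ⟨e, rfl⟩ := Nat.exists_eq_add_of_lt hlt
    have h2 : Q ^ γ * (1 + Q ^ d) = Q ^ γ * (2 * Q ^ (e + 1)) := by rw [h1]; ring
    have h3 := Nat.eq_of_mul_eq_mul_left (pow_pos hQ.pos γ) h2
    have h4 : Q ∣ 1 + Q ^ d := by
      rw [h3]; exact Dvd.dvd.mul_left (dvd_pow_self Q (by omega)) 2
    have h5 : Q ∣ Q ^ d := dvd_pow_self Q hd.ne'
    have h6 : Q ∣ 1 := (Nat.dvd_add_left h5).mp h4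
    exact hQ.one_lt.ne' (Nat.dvd_one.mp h6)

theorem pow_add_pow_eq {Q γ γ' β : ℕ} (hQ : Q.Prime) (hQ2 : Q ≠ 2)
    (h : Q ^ γ + Q ^ γ' = 2 * Q ^ β) : γ = γ' := by
  by_contra hne
  rcases lt_or_gt_of_ne hne with hlt | hlt
  · obtain ⟨e, rfl⟩ := Nat.exists_eq_add_of_lt hlt
    exact pow_add_pow_lt (γ := γ) (d := e + 1) (β := β) hQ hQ2 (by omega) (by rw [← h]; ring)
  · obtain ⟨e, rfl⟩ := Nat.exists_eq_add_of_lt hlt
    exact pow_add_pow_lt (γ := γ') (d := e + 1) (β := β) hQ hQ2 (by omega) (by rw [← h]; ring)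

theorem arith_neg {P Q x₂ x₃ x₄ : ℕ} (hP : P.Prime) (hQ : Q.Prime) (hPQ : P ≠ Q)
    (hQ2 : Q ≠ 2)
    (hx2 : ∀ s : ℕ, s.Prime → s ∣ x₂ → s = P ∨ s = Q)
    (hx3 : ∀ s : ℕ, s.Prime → s ∣ x₃ → s = P ∨ s = Q)
    (hx4 : ∀ s : ℕ, s.Prime → s ∣ x₄ → s = P ∨ s = Q)
    (hF2 : ∀ s : ℕ, s.Prime → s ≠ 2 → s ∣ x₂ + 1 → s = P ∨ s = Q)
    (hF3 : ∀ s : ℕ, s.Prime → s ≠ 2 → s ∣ x₃ - 1 → s = P ∨ s = Q)
    (hF4 : ∀ s : ℕ, s.Prime → s ≠ 2 → s ∣ x₄ - 1 → s = P ∨ s = Q)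
    (hQd : Q ∣ x₂ + 1)
    (m2 : x₂ % 4 = 1) (m3 : x₃ % 4 = 3) (m4 : x₄ % 4 = 3) (n2 : x₂ ≠ 1)
    (heq : x₂ + 1 = x₃ + x₄) : x₂ = 5 ∧ x₃ = 3 ∧ x₄ = 3 := by
  have hQx2 : ¬ Q ∣ x₂ := fun h =>
    hQ.one_lt.ne' (Nat.dvd_one.mp ((Nat.dvd_add_right h).mp hQd))
  have hPx2 : P ∣ x₂ := by
    obtain ⟨s, hs, hsd⟩ := Nat.exists_prime_and_dvd n2
    rcases hx2 s hs hsd with rfl | rfl
    · exact hsd
    · exact absurd hsd hQx2
  have hPx21 : ¬ P ∣ x₂ + 1 := fun h =>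
    hP.one_lt.ne' (Nat.dvd_one.mp ((Nat.dvd_add_right hPx2).mp h))
  obtain ⟨m₂, hm₂⟩ : ∃ m, x₂ + 1 = 2 * m := ⟨(x₂ + 1) / 2, by omega⟩
  have hm₂pow : ∃ β, m₂ = Q ^ β := by
    refine ⟨_, Nat.eq_prime_pow_of_unique_prime_dvd (by omega) ?_⟩
    intro s hs hsd
    have hs2 : s ≠ 2 := by rintro rfl; omega
    have hsx : s ∣ x₂ + 1 := by rw [hm₂]; exact Dvd.dvd.mul_left hsd 2
    rcases hF2 s hs hs2 hsx with rfl | rfl
    · exact absurd hsx hPx21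
    · rfl
  obtain ⟨β, rfl⟩ := hm₂pow
  have hnP : ¬ (P ∣ x₃ ∧ P ∣ x₄) := fun ⟨h3, h4⟩ =>
    hPx21 (by rw [heq]; exact dvd_add h3 h4)
  have hQ34 : Q ∣ x₃ + x₄ := by rw [← heq]; exact hQd
  have hQiff : Q ∣ x₃ ↔ Q ∣ x₄ :=
    ⟨fun h => (Nat.dvd_add_right h).mp hQ34, fun h => (Nat.dvd_add_left h).mp hQ34⟩
  have hx31 : x₃ ≠ 1 := by omega
  have hx41 : x₄ ≠ 1 := by omega
  have hQx3 : Q ∣ x₃ := by
    by_contra hn
    have hn4 : ¬ Q ∣ x₄ := fun h => hn (hQiff.mpr h)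
    apply hnP
    constructor
    · obtain ⟨s, hs, hsd⟩ := Nat.exists_prime_and_dvd hx31
      rcases hx3 s hs hsd with rfl | rfl
      · exact hsd
      · exact absurd hsd hn
    · obtain ⟨s, hs, hsd⟩ := Nat.exists_prime_and_dvd hx41
      rcases hx4 s hs hsd with rfl | rfl
      · exact hsd
      · exact absurd hsd hn4
  have hQx4 : Q ∣ x₄ := hQiff.mp hQx3
  have key : ∀ x : ℕ, x % 4 = 3 → Q ∣ x →
      (∀ s : ℕ, s.Prime → s ≠ 2 → s ∣ x - 1 → s = P ∨ s = Q) → P ∣ x → False := by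
    intro x hx4' hQx hF hPx
    obtain ⟨m, hm⟩ : ∃ m, x - 1 = 2 * m := ⟨(x - 1) / 2, by omega⟩
    have hm1 : m = 1 := by
      by_contra hne
      obtain ⟨s, hs, hsd⟩ := Nat.exists_prime_and_dvd hne
      have hs2 : s ≠ 2 := by rintro rfl; omega
      have hsx1 : s ∣ x - 1 := by rw [hm]; exact Dvd.dvd.mul_left hsd 2
      have hsx : s ∣ x := by
        rcases hF s hs hs2 hsx1 with rfl | rfl
        · exact hPx
        · exact hQx
      have h1 : s ∣ 1 := by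
        have h1 : x = (x - 1) + 1 := by omega
        rw [h1] at hsx
        exact (Nat.dvd_add_right hsx1).mp hsx
      exact hs.one_lt.ne' (Nat.dvd_one.mp h1)
    have hx3' : x = 3 := by omega
    subst hx3'
    have h1 := (Nat.prime_dvd_prime_iff_eq hP Nat.prime_three).mp hPx
    have h2 := (Nat.prime_dvd_prime_iff_eq hQ Nat.prime_three).mp hQx
    exact hPQ (h1.trans h2.symm)
  have hPx3 : ¬ P ∣ x₃ := key x₃ m3 hQx3 hF3
  have hPx4 : ¬ P ∣ x₄ := key x₄ m4 hQx4 hF4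
  obtain ⟨γ, hγ⟩ : ∃ γ, x₃ = Q ^ γ := by
    refine ⟨_, Nat.eq_prime_pow_of_unique_prime_dvd (by omega) ?_⟩
    intro s hs hsd
    rcases hx3 s hs hsd with rfl | rfl
    · exact absurd hsd hPx3
    · rfl
  obtain ⟨γ', hγ'⟩ : ∃ γ', x₄ = Q ^ γ' := by
    refine ⟨_, Nat.eq_prime_pow_of_unique_prime_dvd (by omega) ?_⟩
    intro s hs hsd
    rcases hx4 s hs hsd with rfl | rfl
    · exact absurd hsd hPx4
    · rfl
  have hpow : Q ^ γ + Q ^ γ' = 2 * Q ^ β := by rw [← hγ, ← hγ', ← heq, hm₂]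
  have hγγ' : γ = γ' := pow_add_pow_eq hQ hQ2 hpow
  have h34 : x₃ = x₄ := by rw [hγ, hγ', hγγ']
  obtain ⟨m, hm⟩ : ∃ m, x₃ - 1 = 2 * m := ⟨(x₃ - 1) / 2, by omega⟩
  have hm1 : m = 1 := by
    by_contra hne
    obtain ⟨s, hs, hsd⟩ := Nat.exists_prime_and_dvd hne
    have hs2 : s ≠ 2 := by rintro rfl; omega
    have hsx1 : s ∣ x₃ - 1 := by rw [hm]; exact Dvd.dvd.mul_left hsd 2
    rcases hF3 s hs hs2 hsx1 with rfl | rfl
    · have hx2e : x₂ = 4 * m + 1 := by omega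
      have h1 : s ∣ 1 := by
        have h2 := hPx2
        rw [hx2e] at h2
        exact (Nat.dvd_add_right (Dvd.dvd.mul_left hsd 4)).mp h2
      exact hs.one_lt.ne' (Nat.dvd_one.mp h1)
    · have h1 : s ∣ 1 := by
        have h1 : x₃ = (x₃ - 1) + 1 := by omega
        have h2 := hQx3
        rw [h1] at h2
        exact (Nat.dvd_add_right hsx1).mp h2
      exact hs.one_lt.ne' (Nat.dvd_one.mp h1)
  omega

/-- The arithmetic of Brauer's order formula for a group of order `4 p^a q^b`. -/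
theorem klein_arith (p q a b : ℕ) (hp : p.Prime) (hq : q.Prime) (hpq : p ≠ q) (hp2 : p ≠ 2)
    (hq2 : q ≠ 2) (N cP cJ x₂ x₃ x₄ : ℕ) (ε : ℤ) (hε : ε = 1 ∨ ε = -1)
    (hN : N = 4 * p ^ a * q ^ b) (hcJ : cJ ∣ N)
    (h2 : x₂ ∣ N) (h3 : x₃ ∣ N) (h4 : x₄ ∣ N)
    (n2 : x₂ ≠ 1) (n4 : x₄ ≠ 1)
    (d2 : (4 : ℤ) ∣ (x₂ : ℤ) - 1) (d3 : (4 : ℤ) ∣ (x₃ : ℤ) - ε) (d4 : (4 : ℤ) ∣ (x₄ : ℤ) + 1)
    (heq : (1 : ℤ) + x₂ + ε * x₃ - x₄ = 0)
    (hkey : (N : ℤ) * (((x₂ : ℤ) + 1) * ((x₃ : ℤ) + ε) * ((x₄ : ℤ) + -1)) * (cP : ℤ) ^ 2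
      = 8 * (cJ : ℤ) ^ 3 * ((x₂ : ℤ) * x₃ * x₄))
    (h23 : ε = 1 → x₂ = x₃) :
    ε = -1 ∧ x₂ = 5 ∧ x₃ = 3 ∧ x₄ = 3 := by
  subst hN
  -- primes dividing the divisors of `N`
  have hdiv : ∀ x : ℕ, x ∣ 4 * p ^ a * q ^ b → x % 2 = 1 → ∀ s : ℕ, s.Prime → s ∣ x →
      s = p ∨ s = q := by
    intro x hx hodd s hs hsd
    rcases prime_dvd_cases hp hq hs (dvd_trans hsd hx) with rfl | h
    · exfalso; omega
    · exact h
  -- primes dividing the product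
  have hF : ∀ r : ℕ, r.Prime →
      (r : ℤ) ∣ ((x₂ : ℤ) + 1) * ((x₃ : ℤ) + ε) * ((x₄ : ℤ) + -1) → r = 2 ∨ r = p ∨ r = q := by
    intro r hr hrd
    have h1 : (r : ℤ) ∣ 8 * (cJ : ℤ) ^ 3 * ((x₂ : ℤ) * x₃ * x₄) := by
      rw [← hkey]
      exact Dvd.dvd.mul_right (Dvd.dvd.mul_left hrd _) _
    have h2' : r ∣ 8 * cJ ^ 3 * (x₂ * x₃ * x₄) := by exact_mod_cast h1
    rcases (Nat.Prime.dvd_mul hr).mp h2' with h | h
    · rcases (Nat.Prime.dvd_mul hr).mp h with h | h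
      · left
        have h8 : r ∣ 2 ^ 3 := by norm_num; exact h
        exact (Nat.prime_dvd_prime_iff_eq hr Nat.prime_two).mp (hr.dvd_of_dvd_pow h8)
      · exact prime_dvd_cases hp hq hr (dvd_trans (hr.dvd_of_dvd_pow h) hcJ)
    · rcases (Nat.Prime.dvd_mul hr).mp h with h | h
      · rcases (Nat.Prime.dvd_mul hr).mp h with h | h
        · exact prime_dvd_cases hp hq hr (dvd_trans h h2)
        · exact prime_dvd_cases hp hq hr (dvd_trans h h3)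
      · exact prime_dvd_cases hp hq hr (dvd_trans h h4)
  have m2 : x₂ % 4 = 1 := by omega
  have m4 : x₄ % 4 = 3 := by omega
  rcases hε with rfl | rfl
  · -- signs `(1, 1, -1)`: impossible
    exfalso
    have hx := h23 rfl
    subst hx
    have hx4 : x₄ = 2 * x₂ + 1 := by omega
    subst hx4
    obtain ⟨m, hm⟩ : ∃ m, x₂ + 1 = 2 * m := ⟨(x₂ + 1) / 2, by omega⟩
    have hm1 : m ≠ 1 := by omega
    obtain ⟨r, hr, hrm⟩ := Nat.exists_prime_and_dvd hm1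
    have hr2 : r ≠ 2 := by rintro rfl; omega
    have hrx : r ∣ x₂ + 1 := by rw [hm]; exact Dvd.dvd.mul_left hrm 2
    have hrpq : r = p ∨ r = q := by
      have hc : (r : ℤ) ∣ (x₂ : ℤ) + 1 := by exact_mod_cast hrx
      rcases hF r hr (Dvd.dvd.mul_right (Dvd.dvd.mul_right hc _) _) with h | h
      · exact absurd h hr2
      · exact h
    have hrx2 : ¬ r ∣ x₂ := fun h =>
      hr.one_lt.ne' (Nat.dvd_one.mp ((Nat.dvd_add_right h).mp hrx))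
    have hrx4 : ¬ r ∣ 2 * x₂ + 1 := by
      intro h
      have h5 : r ∣ (2 * x₂ + 1) + 1 := by
        have : 2 * x₂ + 1 + 1 = 2 * (x₂ + 1) := by ring
        rw [this]; exact Dvd.dvd.mul_left hrx 2
      exact hr.one_lt.ne' (Nat.dvd_one.mp ((Nat.dvd_add_right h).mp h5))
    obtain ⟨s, hs, hsd⟩ := Nat.exists_prime_and_dvd n2
    obtain ⟨s', hs', hsd'⟩ := Nat.exists_prime_and_dvd n4
    have hspq := hdiv x₂ h2 (by omega) s hs hsd
    have hspq' := hdiv (2 * x₂ + 1) h4 (by omega) s' hs' hsd'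
    have hsr : s ≠ r := by rintro rfl; exact hrx2 hsd
    have hsr' : s' ≠ r := by rintro rfl; exact hrx4 hsd'
    have hss' : s = s' := by omega
    subst hss'
    have h6 : s ∣ 1 := by
      have h7 : s ∣ 2 * x₂ := Dvd.dvd.mul_left hsd 2
      exact (Nat.dvd_add_right h7).mp hsd'
    exact hs.one_lt.ne' (Nat.dvd_one.mp h6)
  · -- signs `(1, -1, -1)`
    refine ⟨rfl, ?_⟩
    have m3 : x₃ % 4 = 3 := by omega
    have heq' : x₂ + 1 = x₃ + x₄ := by omega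
    obtain ⟨m, hm⟩ : ∃ m, x₂ + 1 = 2 * m := ⟨(x₂ + 1) / 2, by omega⟩
    have hm1 : m ≠ 1 := by omega
    obtain ⟨Q, hQ, hQm⟩ := Nat.exists_prime_and_dvd hm1
    have hQ2 : Q ≠ 2 := by rintro rfl; omega
    have hQx : Q ∣ x₂ + 1 := by rw [hm]; exact Dvd.dvd.mul_left hQm 2
    have hG2 : ∀ s : ℕ, s.Prime → s ≠ 2 → s ∣ x₂ + 1 → s = p ∨ s = q := by
      intro s hs hs2 hsd
      have hc : (s : ℤ) ∣ (x₂ : ℤ) + 1 := by exact_mod_cast hsd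
      rcases hF s hs (Dvd.dvd.mul_right (Dvd.dvd.mul_right hc _) _) with h | h
      · exact absurd h hs2
      · exact h
    have hG3 : ∀ s : ℕ, s.Prime → s ≠ 2 → s ∣ x₃ - 1 → s = p ∨ s = q := by
      intro s hs hs2 hsd
      have hc : (s : ℤ) ∣ (x₃ : ℤ) + -1 := by
        have e : (x₃ : ℤ) + -1 = ((x₃ - 1 : ℕ) : ℤ) := by omega
        rw [e]; exact_mod_cast hsd
      rcases hF s hs (Dvd.dvd.mul_right (Dvd.dvd.mul_left hc _) _) with h | h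
      · exact absurd h hs2
      · exact h
    have hG4 : ∀ s : ℕ, s.Prime → s ≠ 2 → s ∣ x₄ - 1 → s = p ∨ s = q := by
      intro s hs hs2 hsd
      have hc : (s : ℤ) ∣ (x₄ : ℤ) + -1 := by
        have e : (x₄ : ℤ) + -1 = ((x₄ - 1 : ℕ) : ℤ) := by omega
        rw [e]; exact_mod_cast hsd
      rcases hF s hs (Dvd.dvd.mul_left hc _) with h | h
      · exact absurd h hs2
      · exact h
    have hd2 := hdiv x₂ h2 (by omega)
    have hd3 := hdiv x₃ h3 (by omega)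
    have hd4 := hdiv x₄ h4 (by omega)
    rcases hG2 Q hQ hQ2 hQx with rfl | rfl
    · exact arith_neg (P := q) (Q := Q) hq hQ (Ne.symm hpq) hQ2
        (fun s hs h => (hd2 s hs h).symm) (fun s hs h => (hd3 s hs h).symm)
        (fun s hs h => (hd4 s hs h).symm) (fun s hs h2 h => (hG2 s hs h2 h).symm)
        (fun s hs h2 h => (hG3 s hs h2 h).symm) (fun s hs h2 h => (hG4 s hs h2 h).symm)
        hQx m2 m3 m4 n2 heq'
    · exact arith_neg (P := p) (Q := Q) hp hQ hpq hQ2 hd2 hd3 hd4 hG2 hG3 hG4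
        hQx m2 m3 m4 n2 heq'

end Cfsg.Agent.Lib.Helper76.KleinArith
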