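import Mathlib
import Cfsg.Agent.Lib.Helper41.OMStmt
import Cfsg.Agent.Lib.Helper40.FExtOdd
import Cfsg.Agent.Lib.Helper29.SpFNOCOMM2

/-!
# S5978 / NOCOMMG (call by helper41)

`Helper29.OFNOCOMMO` for an arbitrary index type and an invertible Gram matrix `S`:
the adjoint is `M ↦ S⁻¹ * Mᵀ * S`.
-/

set_option autoImplicit false
universe u

namespace Cfsg.Agent.Lib.Helper76.OMNOCOMMG

open Matrix Polynomial UniqueFactorizationMonoid
open Cfsg.Agent.Lib.Helper40.FExt
  Cfsg.Agent.Lib.Helper40.FExtIdx Cfsg.Agent.Lib.Helper40.InvDims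
  Cfsg.Agent.Lib.Helper40.SSConj Cfsg.Agent.Lib.Helper40.SpPoly
  Cfsg.Agent.Lib.Helper40.SpElt Cfsg.Agent.Lib.Helper13.SympMat Cfsg.Agent.Lib.Helper40.SpTI
  Cfsg.Agent.Lib.Helper40.FExtOdd
open Cfsg.Agent.Lib.Helper29.SpFNOCOMM2 (J_pow_q_pow)

section adj
variable {F : Type u} [Field F] {ι : Type} [Fintype ι] [DecidableEq ι] (S : Matrix ι ι F)

/-- the adjoint for the Gram matrix `S` -/
noncomputable def oadj (M : Matrix ι ι F) : Matrix ι ι F :=
  S⁻¹ * Mᵀ * S

theorem oadj_mul (hS2 : S * S⁻¹ = 1) (M N : Matrix ι ι F) :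
    oadj S (M * N) = oadj S N * oadj S M := by
  unfold oadj
  rw [Matrix.transpose_mul]
  have h : S⁻¹ * Nᵀ * S * (S⁻¹ * Mᵀ * S) = S⁻¹ * Nᵀ * (S * S⁻¹) * Mᵀ * S := by
    simp only [Matrix.mul_assoc]
  rw [h, hS2, Matrix.mul_one]
  simp only [Matrix.mul_assoc]

theorem oadj_add (M N : Matrix ι ι F) : oadj S (M + N) = oadj S M + oadj S N := by
  unfold oadj
  rw [Matrix.transpose_add, Matrix.mul_add, Matrix.add_mul]

theorem oadj_one (hS1 : S⁻¹ * S = 1) : oadj S (1 : Matrix ι ι F) = 1 := by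
  unfold oadj
  rw [Matrix.transpose_one, Matrix.mul_one, hS1]

theorem oadj_smul (r : F) (M : Matrix ι ι F) : oadj S (r • M) = r • oadj S M := by
  unfold oadj
  rw [Matrix.transpose_smul, Matrix.mul_smul, Matrix.smul_mul]

theorem oadj_pow (hS1 : S⁻¹ * S = 1) (hS2 : S * S⁻¹ = 1) (M : Matrix ι ι F) (k : ℕ) :
    oadj S (M ^ k) = oadj S M ^ k := by
  induction k with
  | zero => rw [pow_zero, pow_zero, oadj_one S hS1]
  | succ k ih => rw [pow_succ, oadj_mul S hS2, ih, pow_succ']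

theorem oadj_aeval' (hS1 : S⁻¹ * S = 1) (hS2 : S * S⁻¹ = 1) (x : Matrix ι ι F) (g : F[X]) :
    oadj S (aeval x g) = aeval (oadj S x) g := by
  induction g using Polynomial.induction_on' with
  | add a b ha hb => rw [map_add, map_add, oadj_add, ha, hb]
  | monomial k c =>
    rw [aeval_monomial, aeval_monomial, Algebra.algebraMap_eq_smul_one]
    simp only [Matrix.smul_mul, Matrix.one_mul, oadj_smul, oadj_pow S hS1 hS2]

end adj

section fin
variable {F : Type u} [Field F] [Fintype F]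

theorem no_comm_orth [DecidableEq F] {q : ℕ} (hF : Fintype.card F = q) {ι : Type} [Fintype ι]
    [DecidableEq ι] (S : Matrix ι ι F) (hS1 : S⁻¹ * S = 1) (hS2 : S * S⁻¹ = 1)
    (x : Matrix ι ι F) (hx : oadj S x * x = 1)
    (N : ℕ) (hN : (N : F) ≠ 0) (hxN : x ^ N = 1) (P R : F[X]) (hP : Irreducible P)
    (hPm : P.Monic) (hχ : x.charpoly = P * R) (hPR : ¬ P ∣ R) (e : ℕ) (he : Odd e)
    (hxQ : x ^ (q ^ e + 1) = 1)
    (J' : Matrix ι ι F) (a b : F)
    (hJJ : J' * J' = a • J' + b • 1) (hdisc : a * a + 4 * b ≠ 0) (hJq : J' ^ q = a • 1 - J')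
    (hJs : oadj S J' = J') (hc : x * J' = J' * x) : False := by
  have hq0 : 0 < q := by
    rw [← hF]; exact Fintype.card_pos
  obtain ⟨Q, hQ⟩ : ∃ Q, Q = q ^ e := ⟨_, rfl⟩
  have hJQ : J' ^ Q = a • 1 - J' := by
    obtain ⟨k, hk⟩ := he
    rw [hQ, hk]
    exact (J_pow_q_pow hF J' a hJq k).2
  have hfrob : ∀ g : F[X], aeval (x ^ Q) g = (aeval x g) ^ Q := by
    intro g
    rw [hQ]
    exact frob_aeval hF x e g
  rw [← hQ] at hxQ
  have hQpos : 0 < Q := by
    rw [hQ]
    exact pow_pos hq0 e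
  have hsx : oadj S x = x ^ Q := by
    calc oadj S x = oadj S x * (x * x ^ Q) := by rw [← pow_succ', hxQ, Matrix.mul_one]
      _ = x ^ Q := by rw [← Matrix.mul_assoc, hx, Matrix.one_mul]
  have hoadj : ∀ g : F[X], oadj S (aeval x g) = (aeval x g) ^ Q := by
    intro g
    rw [oadj_aeval' S hS1 hS2, hsx, hfrob]
  obtain ⟨φ, hφ⟩ : ∃ φ : Module.End F (ι → F), φ = Matrix.toLin' x := ⟨_, rfl⟩
  have hcp : φ.charpoly = P * R := by rw [hφ, Matrix.charpoly_toLin', hχ]
  obtain ⟨v₀, hv₀, hPv₀⟩ := exists_ker_of_dvd_charpoly φ P hP (hcp ▸ Dvd.intro R rfl)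
  have hfin := finrank_ker x N hN hxN P R hP hPm hχ hPR
  rw [← hφ] at hfin
  have hZle : LinearMap.range (ev φ v₀) ≤ LinearMap.ker (aeval φ P) := by
    rintro w ⟨g, rfl⟩
    rw [LinearMap.mem_ker, ev_apply, ← Module.End.mul_apply, ← map_mul, mul_comm, map_mul,
      Module.End.mul_apply, hPv₀, map_zero]
  have hZfin : Module.finrank F (LinearMap.range (ev φ v₀)) = P.natDegree := by
    have h1 := charpoly_cycRes φ v₀ hv₀ P hP hPv₀
    have h3 := natDegree_eq_of_degree_eq (degree_eq_degree_of_associated h1)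
    rw [LinearMap.charpoly_natDegree] at h3
    exact h3
  have hZeq : LinearMap.range (ev φ v₀) = LinearMap.ker (aeval φ P) :=
    Submodule.eq_of_le_of_finrank_eq hZle (by rw [hZfin, hfin])
  have hJv : Matrix.toLin' J' v₀ ∈ LinearMap.range (ev φ v₀) := by
    rw [hZeq]
    have h3 := ker_invt x J' hc P
    rw [← hφ] at h3
    have h4 : LinearMap.ker (aeval φ P) ≤
        (LinearMap.ker (aeval φ P)).comap (Matrix.toLin' J') := h3
    exact h4 (LinearMap.mem_ker.mpr hPv₀)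
  obtain ⟨ρ, hρ⟩ := hJv
  obtain ⟨a', b', hab⟩ := (hP.coprime_iff_not_dvd).mpr hPR
  obtain ⟨E, hE⟩ : ∃ E, E = aeval x (b' * R) := ⟨_, rfl⟩
  have hPR0 : aeval x (P * R) = 0 := by
    rw [← hχ]
    exact Matrix.aeval_self_charpoly x
  have hPE : aeval x P * E = 0 := by
    rw [hE, ← map_mul, show P * (b' * R) = b' * (P * R) by ring, map_mul, hPR0, mul_zero]
  have hE1 : E + aeval x (a' * P) = 1 := by
    rw [hE, ← map_add, add_comm, hab, map_one]
  have hEE : E * E = E := by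
    have h5 : E * aeval x (a' * P) = 0 := by
      rw [hE, ← map_mul, show b' * R * (a' * P) = (b' * a') * (P * R) by ring, map_mul, hPR0,
        mul_zero]
    calc E * E = E * (E + aeval x (a' * P)) := by rw [mul_add, h5, add_zero]
      _ = E := by rw [hE1, mul_one]
  have hEpow : ∀ k : ℕ, 0 < k → E ^ k = E := by
    intro k hk
    induction k with
    | zero => omega
    | succ k ih =>
      rcases Nat.eq_zero_or_pos k with h | h
      · subst h
        rw [zero_add, pow_one]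
      · rw [pow_succ, ih h, hEE]
  have hEv₀ : E *ᵥ v₀ = v₀ := by
    have h6 : (E + aeval x (a' * P)) *ᵥ v₀ = v₀ := by rw [hE1, Matrix.one_mulVec]
    rw [Matrix.add_mulVec, map_mul, ← Matrix.mulVec_mulVec] at h6
    have h7 : aeval x P *ᵥ v₀ = 0 := by
      have h8 := hPv₀
      rw [hφ, toLin_aeval, Matrix.toLin'_apply] at h8
      exact h8
    rw [h7, Matrix.mulVec_zero, add_zero] at h6
    exact h6
  have hJE_comm : J' * E = E * J' := by
    rw [hE]
    exact (comm_aeval x J' hc (b' * R)).symm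
  have hN' : J' * E = aeval x (ρ * (b' * R)) := by
    rw [map_mul, ← hE]
    apply Matrix.toLin'.injective
    apply LinearMap.ext
    intro w
    rw [Matrix.toLin'_mul_apply, Matrix.toLin'_mul_apply]
    have hEw : Matrix.toLin' E w ∈ LinearMap.range (ev φ v₀) := by
      rw [hZeq, LinearMap.mem_ker, hφ, toLin_aeval, ← Matrix.toLin'_mul_apply, hPE, map_zero]
      rfl
    obtain ⟨g, hg⟩ := hEw
    rw [← hg, ev_apply]
    have h8 : Matrix.toLin' J' (aeval φ g v₀) = aeval φ g (Matrix.toLin' J' v₀) := by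
      rw [hφ, toLin_aeval, ← Matrix.toLin'_mul_apply, ← Matrix.toLin'_mul_apply,
        comm_aeval x J' hc g]
    rw [h8, ← hρ, ev_apply, ← toLin_aeval, ← hφ, ← Module.End.mul_apply, ← Module.End.mul_apply,
      ← map_mul, ← map_mul, mul_comm]
  obtain ⟨Nm, hNm⟩ : ∃ Nm, Nm = J' * E := ⟨_, rfl⟩
  -- `oadj S Nm = (a - J) E`
  have hs1 : oadj S Nm = (a • 1 - J') * E := by
    have h9 : oadj S Nm = Nm ^ Q := by
      rw [hNm, hN']
      exact hoadj _
    rw [h9, hNm, (show Commute J' E from hJE_comm).mul_pow, hJQ, hEpow Q hQpos]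
  -- `oadj S Nm = J E`
  have hs2 : oadj S Nm = J' * E := by
    rw [hNm, oadj_mul S hS2, hJs, hE, hoadj, ← hE, hEpow Q hQpos, ← hJE_comm]
  -- `(2 J - a) E = 0`
  have h2JE : ((2 : F) • J' - a • 1) * E = 0 := by
    have h9 : (a • (1 : Matrix ι ι F) - J') * E = J' * E := by
      rw [← hs1, hs2]
    have h10 : ((2 : F) • J' - a • 1) * E = J' * E - (a • 1 - J') * E := by
      rw [Matrix.sub_mul, Matrix.sub_mul, Matrix.smul_mul, two_smul]
      abel
    rw [h10, h9, sub_self]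
  have hsq : ((2 : F) • J' - a • 1) * ((2 : F) • J' - a • 1) =
      (a * a + 4 * b) • (1 : Matrix ι ι F) := by
    have h11 : ((2 : F) • J' - a • 1) * ((2 : F) • J' - a • 1) =
        (4 : F) • (J' * J') - (4 * a) • J' + (a * a) • (1 : Matrix ι ι F) := by
      simp only [Matrix.sub_mul, Matrix.mul_sub, Matrix.smul_mul, Matrix.mul_smul,
        Matrix.one_mul, Matrix.mul_one, smul_smul, smul_sub]
      module
    rw [h11, hJJ]
    module
  have hE0 : E = 0 := by
    have h12 : (a * a + 4 * b) • E = 0 := by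
      calc (a * a + 4 * b) • E
          = ((a * a + 4 * b) • (1 : Matrix ι ι F)) * E := by
            rw [Matrix.smul_mul, Matrix.one_mul]
        _ = ((2 : F) • J' - a • 1) * (((2 : F) • J' - a • 1) * E) := by
            rw [← hsq, Matrix.mul_assoc]
        _ = 0 := by rw [h2JE, Matrix.mul_zero]
    rcases smul_eq_zero.mp h12 with h | h
    · exact absurd h hdisc
    · exact h
  apply hv₀
  rw [← hEv₀, hE0, Matrix.zero_mulVec]

end fin

/-- `NOCOMMG` of the S5978 plan. -/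
theorem main : Cfsg.Agent.Lib.Helper41.OMStmt.NoCommG.{u} := by
  intro F _ _ q hF ι _ _ S x hSt hSdet hx N hN hxN P R hP hPm hχ hPR e he hxQ J a b hJJ hdisc hJq
    hJs hc
  classical
  have hu : IsUnit S.det := isUnit_iff_ne_zero.2 hSdet
  have hS1 : S⁻¹ * S = 1 := Matrix.nonsing_inv_mul S hu
  have hS2 : S * S⁻¹ = 1 := Matrix.mul_nonsing_inv S hu
  have hx' : oadj S x * x = 1 := by
    have h : oadj S x * x = S⁻¹ * (xᵀ * S * x) := by
      unfold oadj
      simp only [Matrix.mul_assoc]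
    rw [h, hx, hS1]
  have hJs' : oadj S J = J := by
    have h : oadj S J = S⁻¹ * (Jᵀ * S) := by
      unfold oadj
      simp only [Matrix.mul_assoc]
    rw [h, ← hJs, ← Matrix.mul_assoc, hS1, Matrix.one_mul]
  exact no_comm_orth hF S hS1 hS2 x hx' N hN hxN P R hP hPm hχ hPR e he hxQ J a b hJJ hdisc hJq
    hJs' hc

#print axioms main

end Cfsg.Agent.Lib.Helper76.OMNOCOMMG
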