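import Mathlib

/-!
# A `p`-adic separation lemma for power sums of algebraic integers

Let `L` be a finite set of algebraic integers.  There are a set `U` of complex numbers (the
elements of the ring generated by `L` outside a fixed maximal ideal over `p`) and `m > 0` such
that: whenever a power sum `∑ c i * lam i ^ (m * p ^ N)` with `c i, lam i ∈ L` is an integer
multiple of `p ^ (N - a + 1)` for all `N ≥ a`, the sum of the `c i` over the `i` with
`lam i ∈ U` vanishes.  (Krull's intersection theorem in the finitely generated ring `ℤ[L]`.)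
-/

set_option autoImplicit false

namespace Cfsg.Agent.Lib.Helper76.PAdicSep

open Finset

theorem pow_sub_one_mem {R : Type*} [CommRing R] (I : Ideal R) (p : ℕ) (hpI : (p : R) ∈ I)
    (x : R) (j : ℕ) (hx : x - 1 ∈ I ^ (j + 1)) : x ^ p - 1 ∈ I ^ (j + 2) := by
  have hx1 : x - 1 ∈ I := Ideal.pow_le_self (Nat.succ_ne_zero j) hx
  have h1 : (∑ i ∈ range p, x ^ i) ∈ I := by
    have h0 : (∑ i ∈ range p, x ^ i) - (p : R) = ∑ i ∈ range p, (x ^ i - 1) := by
      simp [Finset.sum_sub_distrib]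
    have h2 : ∑ i ∈ range p, (x ^ i - 1) ∈ I := by
      refine Ideal.sum_mem _ fun i _ => ?_
      have h3 : x ^ i - 1 = (x - 1) * ∑ k ∈ range i, x ^ k := by
        rw [mul_comm, geom_sum_mul]
      rw [h3]
      exact Ideal.mul_mem_right _ _ hx1
    have h3 := Ideal.add_mem _ h2 hpI
    rwa [← h0, sub_add_cancel] at h3
  have h4 : x ^ p - 1 = (x - 1) * ∑ i ∈ range p, x ^ i := by
    rw [mul_comm, geom_sum_mul]
  rw [h4, show j + 2 = (j + 1) + 1 from rfl, pow_succ]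
  exact Ideal.mul_mem_mul hx h1

theorem pow_pow_sub_one_mem {R : Type*} [CommRing R] (I : Ideal R) (p : ℕ) (hpI : (p : R) ∈ I)
    (x : R) (hx : x - 1 ∈ I) (N : ℕ) : x ^ (p ^ N) - 1 ∈ I ^ (N + 1) := by
  induction N with
  | zero => simpa using hx
  | succ N ih =>
    have h1 : x ^ (p ^ (N + 1)) = (x ^ (p ^ N)) ^ p := by rw [← pow_mul, pow_succ]
    rw [h1]
    exact pow_sub_one_mem I p hpI _ N ih

theorem sep_core {R : Type*} [CommRing R] [IsDomain R] [IsNoetherianRing R] (P : Ideal R)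
    (hP : P ≠ ⊤) (p : ℕ) (hp2 : 2 ≤ p) (hpP : (p : R) ∈ P) (m : ℕ) (hm : 0 < m)
    (hunit : ∀ x : R, x ∉ P → x ^ m - 1 ∈ P)
    {ι : Type*} (I : Finset ι) (c lam : ι → R) (a : ℕ)
    (h : ∀ N, a ≤ N → ∃ t : R, ∑ i ∈ I, c i * lam i ^ (m * p ^ N) = (p : R) ^ (N - a + 1) * t) :
    ∑ i ∈ I, (open Classical in if lam i ∉ P then c i else 0) = 0 := by
  classical
  set x : R := ∑ i ∈ I, (if lam i ∉ P then c i else 0) with hx
  have hmem : ∀ j : ℕ, x ∈ P ^ j := by
    intro j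
    obtain ⟨t, ht⟩ := h (a + j) (Nat.le_add_right a j)
    have hN : a + j - a + 1 = j + 1 := by omega
    rw [hN] at ht
    have h1 : ∑ i ∈ I, c i * lam i ^ (m * p ^ (a + j)) ∈ P ^ j := by
      rw [ht]
      refine Ideal.mul_mem_right _ _ ?_
      exact Ideal.pow_le_pow_right (Nat.le_succ j) (Ideal.pow_mem_pow hpP _)
    have hlt : j < p ^ (a + j) := by
      calc j ≤ a + j := Nat.le_add_left j a
        _ < p ^ (a + j) := Nat.lt_pow_self hp2
    have h2 : ∀ i ∈ I, c i * lam i ^ (m * p ^ (a + j)) - (if lam i ∉ P then c i else 0) ∈ P ^ j := by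
      intro i _
      by_cases hi : lam i ∉ P
      · rw [if_pos hi]
        have h3 : c i * lam i ^ (m * p ^ (a + j)) - c i = c i * ((lam i ^ m) ^ (p ^ (a + j)) - 1) := by
          rw [pow_mul]; ring
        rw [h3]
        refine Ideal.mul_mem_left _ _ ?_
        exact Ideal.pow_le_pow_right (by omega)
          (pow_pow_sub_one_mem P p hpP _ (hunit _ hi) (a + j))
      · rw [if_neg hi, sub_zero]
        refine Ideal.mul_mem_left _ _ ?_
        have hi' : lam i ∈ P := not_not.mp hi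
        refine Ideal.pow_le_pow_right ?_ (Ideal.pow_mem_pow hi' _)
        calc j ≤ p ^ (a + j) := hlt.le
          _ ≤ m * p ^ (a + j) := Nat.le_mul_of_pos_left _ hm
    have h3 : x = ∑ i ∈ I, c i * lam i ^ (m * p ^ (a + j)) -
        ∑ i ∈ I, (c i * lam i ^ (m * p ^ (a + j)) - (if lam i ∉ P then c i else 0)) := by
      rw [Finset.sum_sub_distrib]; ring
    rw [h3]
    exact Ideal.sub_mem _ h1 (Ideal.sum_mem _ h2)
  have h0 : x ∈ (⨅ j : ℕ, P ^ j : Ideal R) := by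
    rw [Ideal.mem_iInf]; exact hmem
  rw [Ideal.iInf_pow_eq_bot_of_isDomain P hP] at h0
  exact h0


theorem not_isIntegral_inv_prime (p : ℕ) (hp : p.Prime) : ¬ IsIntegral ℤ ((p : ℂ)⁻¹) := by
  intro h
  have h1 : IsIntegral ℤ ((p : ℚ)⁻¹) := by
    rw [← isIntegral_algebraMap_iff (algebraMap ℚ ℂ).injective]
    simpa using h
  obtain ⟨y, hy⟩ := IsIntegrallyClosed.isIntegral_iff.1 h1
  have hp0 : (p : ℚ) ≠ 0 := by exact_mod_cast hp.ne_zero
  have h2 : (y : ℚ) * p = 1 := by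
    have hy' : (y : ℚ) = (p : ℚ)⁻¹ := hy
    rw [hy']; field_simp
  have h3 : y * (p : ℤ) = 1 := by exact_mod_cast h2
  have h4 : (p : ℤ) ∣ 1 := Dvd.intro_left y h3
  have h5 : p ∣ 1 := by exact_mod_cast h4
  exact hp.one_lt.ne' (Nat.dvd_one.mp h5)

/-- The `p`-adic separation lemma. -/
theorem padic_sep.{v} (p : ℕ) (hp : p.Prime) (L : Finset ℂ) (hL : ∀ x ∈ L, IsIntegral ℤ x) :
    ∃ (U : Set ℂ) (m : ℕ), 0 < m ∧ (∀ k : ℕ, k.Coprime p → (k : ℂ) ∈ U) ∧ (0 : ℂ) ∉ U ∧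
      ∀ (ι : Type v) (I : Finset ι) (c lam : ι → ℂ), (∀ i ∈ I, c i ∈ L) → (∀ i ∈ I, lam i ∈ L) →
        ∀ a : ℕ, (∀ N, a ≤ N → ∃ t : ℤ,
            ∑ i ∈ I, c i * lam i ^ (m * p ^ N) = (p : ℂ) ^ (N - a + 1) * t) →
          ∑ i ∈ I, (open Classical in if lam i ∈ U then c i else 0) = 0 := by
  classical
  let R₀ : Subalgebra ℤ ℂ := Algebra.adjoin ℤ (L : Set ℂ)
  have hfg : R₀.toSubmodule.FG := fg_adjoin_of_finite L.finite_toSet hL
  have hfin : Module.Finite ℤ R₀ := Module.Finite.of_fg hfg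
  have : IsNoetherianRing R₀ :=
    isNoetherian_of_tower ℤ (isNoetherian_of_isNoetherianRing_of_finite ℤ R₀)
  have hint : ∀ x : R₀, IsIntegral ℤ (x : ℂ) := fun x =>
    (IsIntegral.of_finite ℤ x).map R₀.val
  have hLR : ∀ x ∈ L, x ∈ R₀ := fun x hx => Algebra.subset_adjoin (Finset.mem_coe.mpr hx)
  have hpne : Ideal.span {(p : R₀)} ≠ ⊤ := by
    intro h
    rw [Ideal.eq_top_iff_one, Ideal.mem_span_singleton'] at h
    obtain ⟨r, hr⟩ := h
    have h1 : (r : ℂ) * (p : ℂ) = 1 := by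
      have := congrArg (fun x : R₀ => (x : ℂ)) hr
      simpa using this
    have hp0 : (p : ℂ) ≠ 0 := by exact_mod_cast hp.ne_zero
    have h2 : (r : ℂ) = (p : ℂ)⁻¹ := by
      field_simp
      exact h1
    exact not_isIntegral_inv_prime p hp (h2 ▸ hint r)
  obtain ⟨P, hPmax, hle⟩ := Ideal.exists_le_maximal _ hpne
  have hpP : (p : R₀) ∈ P := hle (Ideal.mem_span_singleton_self _)
  have := hPmax
  let _ : Field (R₀ ⧸ P) := Ideal.Quotient.field P
  have : Module.Finite ℤ (R₀ ⧸ P) :=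
    Module.Finite.of_surjective (Ideal.Quotient.mkₐ ℤ P).toLinearMap
      (Ideal.Quotient.mkₐ_surjective ℤ P)
  have hp0 : ((p : R₀) : R₀ ⧸ P) = 0 := Ideal.Quotient.eq_zero_iff_mem.mpr hpP
  have htors : Module.IsTorsion ℤ (R₀ ⧸ P) := by
    intro x
    refine ⟨⟨(p : ℤ), mem_nonZeroDivisors_of_ne_zero (by exact_mod_cast hp.ne_zero)⟩, ?_⟩
    show (p : ℤ) • x = 0
    rw [zsmul_eq_mul]
    have : (((p : ℤ) : R₀ ⧸ P)) = ((p : R₀) : R₀ ⧸ P) := by push_cast; rfl
    rw [this, hp0, zero_mul]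
  have : Finite (R₀ ⧸ P) := Module.finite_of_fg_torsion _ htors
  let _ : Fintype (R₀ ⧸ P) := Fintype.ofFinite _
  set m : ℕ := Fintype.card (R₀ ⧸ P) - 1 with hm
  have hmpos : 0 < m := by
    have : 1 < Fintype.card (R₀ ⧸ P) := Fintype.one_lt_card
    omega
  have hunit : ∀ x : R₀, x ∉ P → x ^ m - 1 ∈ P := by
    intro x hx
    have hx0 : (Ideal.Quotient.mk P x) ≠ 0 := fun h => hx (Ideal.Quotient.eq_zero_iff_mem.mp h)
    have h1 := FiniteField.pow_card_sub_one_eq_one (Ideal.Quotient.mk P x) hx0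
    rw [← Ideal.Quotient.eq_zero_iff_mem, map_sub, map_pow, map_one, hm, h1, sub_self]
  have hPtop : P ≠ ⊤ := hPmax.ne_top
  refine ⟨{x | ∃ h : x ∈ R₀, (⟨x, h⟩ : R₀) ∉ P}, m, hmpos, ?_, ?_, ?_⟩
  · intro k hk
    refine ⟨natCast_mem R₀ k, fun hkP => hPtop ?_⟩
    rw [Ideal.eq_top_iff_one]
    have hk' : ((k : ℤ) : R₀) ∈ P := by
      have : ((k : ℤ) : R₀) = (⟨(k : ℂ), natCast_mem R₀ k⟩ : R₀) := by
        apply Subtype.ext; simp
      rw [this]; exact hkP
    have hp' : ((p : ℤ) : R₀) ∈ P := by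
      have : ((p : ℤ) : R₀) = (p : R₀) := by push_cast; rfl
      rw [this]; exact hpP
    have hcop : IsCoprime (k : ℤ) (p : ℤ) := Nat.isCoprime_iff_coprime.mpr hk
    obtain ⟨u, v, huv⟩ := hcop
    have h1 : ((u * k + v * p : ℤ) : R₀) ∈ P := by
      push_cast
      exact Ideal.add_mem _ (Ideal.mul_mem_left _ _ (by simpa using hk'))
        (Ideal.mul_mem_left _ _ (by simpa using hp'))
    rw [huv] at h1
    simpa using h1
  · rintro ⟨h, h0⟩
    apply h0
    have : (⟨(0 : ℂ), h⟩ : R₀) = 0 := rfl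
    rw [this]; exact Ideal.zero_mem _
  · intro ι I c lam hc hlam a hcong
    let c' : ι → R₀ := fun i => if h : c i ∈ R₀ then ⟨c i, h⟩ else 0
    let lam' : ι → R₀ := fun i => if h : lam i ∈ R₀ then ⟨lam i, h⟩ else 0
    have hc' : ∀ i ∈ I, (c' i : ℂ) = c i := by
      intro i hi
      simp only [c']
      rw [dif_pos (hLR _ (hc i hi))]
    have hlam' : ∀ i ∈ I, (lam' i : ℂ) = lam i := by
      intro i hi
      simp only [lam']
      rw [dif_pos (hLR _ (hlam i hi))]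
    have key := sep_core P hPtop p hp.two_le hpP m hmpos hunit I c' lam' a (by
      intro N hN
      obtain ⟨t, ht⟩ := hcong N hN
      refine ⟨(t : R₀), ?_⟩
      apply Subtype.ext
      push_cast
      rw [← ht]
      refine Finset.sum_congr rfl fun i hi => ?_
      rw [hc' i hi, hlam' i hi])
    have key2 : ∑ i ∈ I, ((if lam' i ∉ P then c' i else 0 : R₀) : ℂ) = 0 := by
      have h9 := congrArg R₀.val key
      rw [map_sum, map_zero] at h9
      exact h9
    refine Eq.trans ?_ key2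
    refine Finset.sum_congr rfl fun i hi => ?_
    have hiff : lam i ∈ {x | ∃ h : x ∈ R₀, (⟨x, h⟩ : R₀) ∉ P} ↔ lam' i ∉ P := by
      have hmem : lam i ∈ R₀ := hLR _ (hlam i hi)
      have hl : lam' i = ⟨lam i, hmem⟩ := by simp only [lam']; rw [dif_pos hmem]
      rw [hl]
      constructor
      · rintro ⟨h, h2⟩; exact h2
      · intro h2; exact ⟨hmem, h2⟩
    by_cases hU : lam' i ∉ P
    · rw [if_pos (hiff.mpr hU), if_pos hU, hc' i hi]
    · rw [if_neg (fun h => hU (hiff.mp h)), if_neg hU]; rfl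

end Cfsg.Agent.Lib.Helper76.PAdicSep
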