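import Mathlib
import Cfsg.Prelude.Def_Characters
import Cfsg.Agent.S0180

/-!
Values of characters in a cyclotomic field of order prime to the order of the element:
if `χ g ∈ ℚ(ζ_r)` with `r` prime to the order of `g`, then `χ (g ^ j) = χ g` for all `j`
prime to the order of `g` (the value `χ g` is fixed by the Galois group, hence rational;
here stated without naming rationality).
-/

set_option autoImplicit false

namespace Cfsg.Agent.Lib.Helper76.PRational

open Polynomial Cfsg

/-- Version with an explicit cyclotomic field. -/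
theorem character_pow_eq_aux {G : Type*} [Group G] [Finite G] {V : Type*} [AddCommGroup V]
    [Module ℂ V] [FiniteDimensional ℂ V] (ρ : Representation ℂ G V) (g : G) (r : ℕ)
    (hr : 0 < r) (hcop : (orderOf g).Coprime r)
    (hmem : ρ.character g ∈
      IntermediateField.adjoin ℚ ({Complex.exp (2 * Real.pi * Complex.I / r)} : Set ℂ))
    (j : ℕ) (hj : j.Coprime (orderOf g)) (e : ℕ) (he : e = orderOf g * r) [NeZero e]
    (L : Type) [Field L] [Algebra ℚ L] [IsCyclotomicExtension {e} ℚ L] :
    ρ.character (g ^ j) = ρ.character g := by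
  have ho : 0 < orderOf g := orderOf_pos g
  have he0 : 0 < e := NeZero.pos e
  have hζ : IsPrimitiveRoot (Complex.exp (2 * Real.pi * Complex.I / e)) e :=
    Complex.isPrimitiveRoot_exp e he0.ne'
  set ζ := Complex.exp (2 * Real.pi * Complex.I / e) with hζdef
  have hζo : ζ ^ orderOf g = Complex.exp (2 * Real.pi * Complex.I / r) := by
    rw [hζdef, ← Complex.exp_nat_mul]
    congr 1
    rw [he]
    have h1 : ((orderOf g : ℕ) : ℂ) ≠ 0 := Nat.cast_ne_zero.mpr ho.ne'
    have h2 : ((r : ℕ) : ℂ) ≠ 0 := Nat.cast_ne_zero.mpr hr.ne'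
    push_cast
    field_simp
  have hζL : IsPrimitiveRoot (IsCyclotomicExtension.zeta e ℚ L) e :=
    IsCyclotomicExtension.zeta_spec e ℚ L
  set ζL := IsCyclotomicExtension.zeta e ℚ L with hζLdef
  have hirr : Irreducible (cyclotomic e ℚ) := cyclotomic.irreducible_rat he0
  let φ : L →ₐ[ℚ] ℂ :=
    (hζL.embeddingsEquivPrimitiveRoots ℂ hirr).symm ⟨ζ, (mem_primitiveRoots he0).mpr hζ⟩
  have hφ : φ ζL = ζ := by
    have := hζL.embeddingsEquivPrimitiveRoots_apply_coe ℂ hirr φ
    rw [← this]
    simp [φ]
  have hφinj : Function.Injective φ := φ.toRingHom.injective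
  -- the exponent
  obtain ⟨k, hk1, hk2⟩ := Nat.chineseRemainder hcop j 1
  have hkcop : k.Coprime e := by
    rw [he]
    apply Nat.Coprime.mul_right
    · have := hk1.gcd_eq
      unfold Nat.Coprime
      rw [this]
      exact hj
    · have := hk2.gcd_eq
      unfold Nat.Coprime
      rw [this]
      exact Nat.gcd_one_left r
  have hprim : IsPrimitiveRoot (ζL ^ k) e := hζL.pow_of_coprime k hkcop
  let σ : L ≃ₐ[ℚ] L := IsCyclotomicExtension.fromZetaAut hprim hirr
  have hσ : σ ζL = ζL ^ k := IsCyclotomicExtension.fromZetaAut_spec hprim hirr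
  -- the character value
  have hge : g ^ e = 1 := by
    rw [he, pow_mul, pow_orderOf_eq_one, one_pow]
  obtain ⟨x, hx⟩ := Cfsg.Agent.S0180.key ρ g e hge (φ : L →+* ℂ) ζL hζL
  have hx1 : φ x = ρ.character g := by
    have := hx (RingHom.id L) 1 (by rw [pow_one]; rfl)
    rw [pow_one] at this
    exact this
  have hxk : φ (σ x) = ρ.character (g ^ j) := by
    have h1 := hx (σ : L →+* L) k hσ
    have h2 : g ^ k = g ^ j := by
      rw [pow_eq_pow_iff_modEq]
      exact hk1
    rw [h2] at h1
    exact h1
  -- `σ` fixes the subfield generated by the `r`-th root of unity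
  have hw : IsPrimitiveRoot (ζL ^ orderOf g) r := hζL.pow he0 he
  have hσw : σ (ζL ^ orderOf g) = ζL ^ orderOf g := by
    rw [map_pow, hσ, ← pow_mul, mul_comm, pow_mul]
    have : (ζL ^ orderOf g) ^ k = (ζL ^ orderOf g) ^ 1 := by
      rw [← pow_mod_orderOf (ζL ^ orderOf g) k, ← pow_mod_orderOf (ζL ^ orderOf g) 1,
        ← hw.eq_orderOf]
      congr 1
    rw [this, pow_one]
  have hfix : ∀ y ∈ IntermediateField.adjoin ℚ ({ζL ^ orderOf g} : Set L), σ y = y := by
    intro y hy
    induction hy using IntermediateField.adjoin_induction with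
    | mem y hy =>
      rw [Set.mem_singleton_iff] at hy
      rw [hy]
      exact hσw
    | algebraMap q => exact σ.commutes q
    | add a b _ _ ha hb => rw [map_add, ha, hb]
    | inv a _ ha => rw [map_inv₀, ha]
    | mul a b _ _ ha hb => rw [map_mul, ha, hb]
  have hxmem : x ∈ IntermediateField.adjoin ℚ ({ζL ^ orderOf g} : Set L) := by
    have h1 : φ x ∈ IntermediateField.map φ
        (IntermediateField.adjoin ℚ ({ζL ^ orderOf g} : Set L)) := by
      rw [IntermediateField.adjoin_map, Set.image_singleton, map_pow, hφ, hζo, hx1]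
      exact hmem
    obtain ⟨y, hy, hyx⟩ := h1
    have : y = x := hφinj hyx
    rw [← this]
    exact hy
  rw [← hxk, hfix x hxmem, hx1]

/-- If the value of a character at `g` lies in the `r`-th cyclotomic field with `r` prime to
the order of `g`, then the character takes the same value on all powers `g ^ j` with `j`
prime to the order of `g`. -/
theorem character_pow_eq {G : Type*} [Group G] [Finite G] {V : Type*} [AddCommGroup V]
    [Module ℂ V] [FiniteDimensional ℂ V] (ρ : Representation ℂ G V) (g : G) (r : ℕ)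
    (hr : 0 < r) (hcop : (orderOf g).Coprime r)
    (hmem : ρ.character g ∈
      IntermediateField.adjoin ℚ ({Complex.exp (2 * Real.pi * Complex.I / r)} : Set ℂ))
    (j : ℕ) (hj : j.Coprime (orderOf g)) :
    ρ.character (g ^ j) = ρ.character g := by
  have he0 : orderOf g * r ≠ 0 := Nat.mul_ne_zero (orderOf_pos g).ne' hr.ne'
  have : NeZero (orderOf g * r) := ⟨he0⟩
  have hne : NeZero ((orderOf g * r : ℕ) : ℚ) := ⟨by exact_mod_cast he0⟩
  have hcyc : IsCyclotomicExtension {orderOf g * r} ℚ (CyclotomicField (orderOf g * r) ℚ) :=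
    CyclotomicField.isCyclotomicExtension (orderOf g * r) ℚ
  exact character_pow_eq_aux ρ g r hr hcop hmem j hj (orderOf g * r) rfl
    (CyclotomicField (orderOf g * r) ℚ)

/-- Character form: if `χ g ∈ ℚ(ζ_r)` with `r` prime to the order of `g`, then
`χ (g ^ j) = χ g` for every `j` prime to the order of `g`. -/
theorem char_pow_eq_of_mem_adjoin {G : Type*} [Group G] [Finite G] {χ : G → ℂ}
    (hχ : IsCharacter G χ) (g : G) (r : ℕ) (hr : 0 < r) (hcop : (orderOf g).Coprime r)
    (hmem : χ g ∈
      IntermediateField.adjoin ℚ ({Complex.exp (2 * Real.pi * Complex.I / r)} : Set ℂ))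
    (j : ℕ) (hj : j.Coprime (orderOf g)) : χ (g ^ j) = χ g := by
  obtain ⟨n, ρ, rfl⟩ := hχ
  exact character_pow_eq ρ g r hr hcop hmem j hj

end Cfsg.Agent.Lib.Helper76.PRational
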