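import Mathlib

/-!
# Power sums of eigenvalues

For an endomorphism `f` of a finite-dimensional complex vector space there is a finite set `s`
of eigenvalues, with multiplicities `mult μ` (the dimensions of the generalized eigenspaces),
such that `trace (f ^ k) = ∑ μ ∈ s, mult μ * μ ^ k` for all `k`; the multiplicities of the
nonzero eigenvalues add up to at most the rank of `f`.  Eigenvalues of an endomorphism that is
integral over `ℤ` are algebraic integers.
-/

set_option autoImplicit false

namespace Cfsg.Agent.Lib.Helper76.SpecTrace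

open Module Module.End

variable {V : Type*} [AddCommGroup V] [Module ℂ V] [FiniteDimensional ℂ V]

theorem trace_restrict_pow (f : End ℂ V) (μ : ℂ) (k : ℕ)
    (h : Set.MapsTo (f ^ k) (f.maxGenEigenspace μ) (f.maxGenEigenspace μ)) :
    LinearMap.trace ℂ _ ((f ^ k).restrict h) =
      (finrank ℂ (f.maxGenEigenspace μ) : ℂ) * μ ^ k := by
  have hf : Set.MapsTo f (f.maxGenEigenspace μ) (f.maxGenEigenspace μ) :=
    f.mapsTo_maxGenEigenspace_of_comm (Commute.refl f) μ
  have key : (f ^ k).restrict h = (f.restrict hf) ^ k := by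
    rw [Module.End.pow_restrict k hf]
  rw [key]
  have hnil := f.isNilpotent_restrict_maxGenEigenspace_sub_algebraMap μ
  clear key h
  induction k with
  | zero => simp
  | succ k ih =>
    have h1 : (f.restrict hf) ^ (k + 1) = ((f.restrict hf) ^ k) ∘ₗ (f.restrict hf) := by
      rw [pow_succ]; rfl
    rw [h1, LinearMap.trace_comp_eq_mul_of_commute_of_isNilpotent μ
      (Commute.pow_left (Commute.refl _) k) hnil, ih]
    ring

theorem spec (f : End ℂ V) : ∃ (s : Finset ℂ) (mult : ℂ → ℕ),
    (∀ μ ∈ s, f.HasEigenvalue μ) ∧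
    (∀ k : ℕ, LinearMap.trace ℂ V (f ^ k) = ∑ μ ∈ s, (mult μ : ℂ) * μ ^ k) ∧
    (∑ μ ∈ s.filter (· ≠ 0), mult μ ≤ finrank ℂ (LinearMap.range f)) := by
  classical
  have hsup : ⨆ μ, f.maxGenEigenspace μ = ⊤ := Module.End.iSup_maxGenEigenspace_eq_top f
  have hds := DirectSum.isInternal_submodule_of_iSupIndep_of_iSup_eq_top
    f.independent_maxGenEigenspace hsup
  have h_fin : {μ | f.maxGenEigenspace μ ≠ ⊥}.Finite :=
    WellFoundedGT.finite_ne_bot_of_iSupIndep f.independent_maxGenEigenspace
  have htr : ∀ k : ℕ, LinearMap.trace ℂ V (f ^ k) =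
      ∑ μ ∈ h_fin.toFinset, (finrank ℂ (f.maxGenEigenspace μ) : ℂ) * μ ^ k := by
    intro k
    have hmaps : ∀ μ, Set.MapsTo (f ^ k) (f.maxGenEigenspace μ) (f.maxGenEigenspace μ) :=
      fun μ => f.mapsTo_maxGenEigenspace_of_comm (Commute.pow_right (Commute.refl f) k) μ
    rw [LinearMap.trace_eq_sum_trace_restrict' hds h_fin hmaps]
    exact Finset.sum_congr rfl fun μ _ => trace_restrict_pow f μ k (hmaps μ)
  refine ⟨h_fin.toFinset, fun μ => finrank ℂ (f.maxGenEigenspace μ), ?_, htr, ?_⟩
  · intro μ hμ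
    rw [Set.Finite.mem_toFinset, Set.mem_ofPred_eq] at hμ
    rw [Module.End.hasEigenvalue_iff_isRoot_charpoly]
    have h1 : 0 < finrank ℂ (f.maxGenEigenspace μ) := by
      rw [Module.finrank_pos_iff]
      exact (Submodule.nontrivial_iff_ne_bot).mpr hμ
    rw [LinearMap.finrank_maxGenEigenspace_eq] at h1
    exact (Polynomial.rootMultiplicity_pos (f.charpoly_monic.ne_zero)).mp h1
  · have h0 := htr 0
    simp only [pow_zero, mul_one] at h0
    have h1 : LinearMap.trace ℂ V (1 : End ℂ V) = (finrank ℂ V : ℂ) := LinearMap.trace_one ℂ V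
    rw [h1] at h0
    have h2 : finrank ℂ V = ∑ μ ∈ h_fin.toFinset, finrank ℂ (f.maxGenEigenspace μ) := by
      have : ((finrank ℂ V : ℕ) : ℂ) =
          ((∑ μ ∈ h_fin.toFinset, finrank ℂ (f.maxGenEigenspace μ) : ℕ) : ℂ) := by
        rw [h0]; push_cast; rfl
      exact_mod_cast this
    have h3 : ∑ μ ∈ h_fin.toFinset, finrank ℂ (f.maxGenEigenspace μ) =
        ∑ μ ∈ h_fin.toFinset.filter (· ≠ 0), finrank ℂ (f.maxGenEigenspace μ) +
          finrank ℂ (f.maxGenEigenspace 0) := by
      rw [← Finset.sum_filter_add_sum_filter_not h_fin.toFinset (· ≠ 0)]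
      congr 1
      by_cases h00 : (0 : ℂ) ∈ h_fin.toFinset
      · have : h_fin.toFinset.filter (fun x => ¬ x ≠ 0) = {0} := by
          ext x
          simp only [Finset.mem_filter, not_not, Finset.mem_singleton]
          constructor
          · rintro ⟨_, h⟩; exact h
          · rintro rfl; exact ⟨h00, rfl⟩
        rw [this, Finset.sum_singleton]
      · have : h_fin.toFinset.filter (fun x => ¬ x ≠ 0) = ∅ := by
          ext x
          simp only [Finset.mem_filter, not_not, Finset.notMem_empty, iff_false, not_and]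
          rintro hx rfl; exact h00 hx
        rw [this, Finset.sum_empty]
        rw [Set.Finite.mem_toFinset, Set.mem_ofPred_eq, not_not] at h00
        rw [h00]; simp
    have h4 : finrank ℂ (LinearMap.ker f) ≤ finrank ℂ (f.maxGenEigenspace 0) := by
      apply Submodule.finrank_mono
      intro x hx
      rw [Module.End.mem_maxGenEigenspace]
      refine ⟨1, ?_⟩
      simpa using hx
    have h5 := LinearMap.finrank_range_add_finrank_ker f
    show ∑ μ ∈ h_fin.toFinset.filter (· ≠ 0), finrank ℂ (f.maxGenEigenspace μ) ≤ _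
    omega

omit [FiniteDimensional ℂ V] in
theorem isIntegral_of_hasEigenvalue (f : End ℂ V) (hf : IsIntegral ℤ f) (μ : ℂ)
    (hμ : f.HasEigenvalue μ) : IsIntegral ℤ μ := by
  obtain ⟨P, hmonic, hP⟩ := hf
  obtain ⟨v, hv⟩ := hμ.exists_hasEigenvector
  refine ⟨P, hmonic, ?_⟩
  have h1 : (Polynomial.aeval f (P.map (algebraMap ℤ ℂ))) v =
      (P.map (algebraMap ℤ ℂ)).eval μ • v := Module.End.aeval_apply_of_hasEigenvector hv
  have h2 : Polynomial.aeval f (P.map (algebraMap ℤ ℂ)) = 0 := by
    rw [Polynomial.aeval_map_algebraMap]; exact hP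
  rw [h2, LinearMap.zero_apply] at h1
  have h3 := (smul_eq_zero.mp h1.symm).resolve_right hv.2
  rwa [Polynomial.eval_map] at h3

end Cfsg.Agent.Lib.Helper76.SpecTrace
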