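import Mathlib
import Cfsg.Prelude.Def_Characters
import Cfsg.Agent.Lib.CT.Rotation
import Cfsg.Agent.Lib.CT.Orth
import Cfsg.Agent.Lib.CT.Kernel
import Cfsg.Agent.Lib.Helper77.CentralChar
import Cfsg.Agent.Lib.Helper80.Integrality
import Cfsg.Agent.Lib.Helper76.PAdicSep
import Cfsg.Agent.Lib.Helper76.SpecTrace

/-!
# A "projective" character common to two permutation characters

For subgroups `Q`, `R` of coprime orders, both prime to `p`, there are multiplicities
`d χ` (the numbers of `p`-adic unit eigenvalues of `∑ u w, ρ_χ (u * w)`) such that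
`Φ = ∑ d χ • χ` vanishes on `p`-singular elements, contains the principal character, and
`⟨Φ, Φ⟩ * |Q| * |R| ≤ |G|`.  (A substitute for the projective cover of the trivial module.)
-/

set_option autoImplicit false

namespace Cfsg.Agent.Lib.Helper76.ProjChar

open Cfsg Module
open scoped ComplexConjugate

universe u

variable {G : Type u} [Group G]

theorem rank_sum_subgroup {V : Type*} [AddCommGroup V] [Module ℂ V] [FiniteDimensional ℂ V]
    (ρ : Representation ℂ G V) (Q : Subgroup G) [Fintype Q] :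
    (finrank ℂ (LinearMap.range (∑ u : Q, ρ (u : G))) : ℂ) * (Fintype.card Q : ℂ) =
      ∑ u : Q, ρ.character (u : G) := by
  set E : Module.End ℂ V := ∑ u : Q, ρ (u : G) with hE
  have hcard : (Fintype.card Q : ℂ) ≠ 0 := Nat.cast_ne_zero.mpr Fintype.card_ne_zero
  have hEE : E * E = (Fintype.card Q : ℂ) • E := by
    rw [hE, Finset.sum_mul]
    have h1 : ∀ u : Q, ρ (u : G) * ∑ v : Q, ρ (v : G) = ∑ v : Q, ρ (v : G) := by
      intro u
      rw [Finset.mul_sum]
      conv_rhs => rw [← Equiv.sum_comp (Equiv.mulLeft u)]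
      refine Finset.sum_congr rfl fun v _ => ?_
      simp [map_mul]
    rw [Finset.sum_congr rfl fun u _ => h1 u, Finset.sum_const, Finset.card_univ,
      Nat.cast_smul_eq_nsmul]
  have hproj : LinearMap.IsProj (LinearMap.range E) ((Fintype.card Q : ℂ)⁻¹ • E) := by
    constructor
    · intro x
      exact Submodule.smul_mem _ _ (LinearMap.mem_range_self E x)
    · rintro x ⟨y, rfl⟩
      show (Fintype.card Q : ℂ)⁻¹ • E (E y) = E y
      have h2 : E (E y) = (Fintype.card Q : ℂ) • E y := by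
        have := congrArg (fun f : Module.End ℂ V => f y) hEE
        simpa using this
      rw [h2, smul_smul, inv_mul_cancel₀ hcard, one_smul]
  have htr := hproj.trace
  have h2 : LinearMap.trace ℂ V ((Fintype.card Q : ℂ)⁻¹ • E) =
      (Fintype.card Q : ℂ)⁻¹ * ∑ u : Q, ρ.character (u : G) := by
    simp only [hE, map_smul, map_sum, smul_eq_mul]
    rfl
  rw [h2] at htr
  rw [← htr]; field_simp

/-- The subring of rational integers inside `ℂ`. -/
def Zc : Subring ℂ := (Int.castRingHom ℂ).range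

theorem coeff_pow_mem [Fintype G] (z : MonoidAlgebra ℂ G) (hz : ∀ g, z.coeff g ∈ Zc) (k : ℕ) :
    ∀ g, (z ^ k).coeff g ∈ Zc := by
  classical
  induction k with
  | zero =>
    intro g
    rw [pow_zero, MonoidAlgebra.one_def, MonoidAlgebra.coeff_single, Finsupp.single_apply]
    split_ifs
    · exact Subring.one_mem _
    · exact Subring.zero_mem _
  | succ k ih =>
    intro g
    rw [pow_succ, MonoidAlgebra.coeff_mul_apply_left, Finsupp.sum_fintype _ _ (fun _ => by simp)]
    exact Subring.sum_mem _ fun h _ => Subring.mul_mem _ (ih h) (hz _)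


theorem orderOf_eq_of_isConj (x y : G) (h : IsConj x y) : orderOf x = orderOf y := by
  obtain ⟨c, hc⟩ := isConj_iff.mp h
  rw [← hc]
  have := orderOf_injective (MulAut.conj c).toMonoidHom (MulAut.conj c).injective x
  simpa using this.symm

theorem second_orth_conj [Fintype G] [Fintype (IrrCharacter G)] (g y : G) :
    ∑ χ : IrrCharacter G, (χ : G → ℂ) g * conj ((χ : G → ℂ) y) =
      (open Classical in if IsConj g y then (Nat.card (Subgroup.centralizer ({y} : Set G)) : ℂ)
        else 0) := by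
  classical
  split_ifs with hc
  · have h1 := Cfsg.Agent.Lib.CT.Orth.second_orthogonality_sum_of_isConj y g hc.symm
    have h2 := congrArg (starRingEnd ℂ) h1
    rw [map_sum, map_natCast] at h2
    rw [← h2]
    refine Finset.sum_congr rfl fun χ _ => ?_
    rw [map_mul, Complex.conj_conj, mul_comm]
  · exact Cfsg.Agent.Lib.CT.Orth.second_orthogonality_sum_of_not_isConj g y hc

/-- The "projective" multiplicities. -/
theorem exists_proj [Fintype G] [Fintype (IrrCharacter G)] (p : ℕ) (hp : p.Prime)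
    (Q R : Subgroup G) (hcop : (Nat.card Q).Coprime (Nat.card R))
    (hQRp : (Nat.card Q * Nat.card R).Coprime p) :
    ∃ d : IrrCharacter G → ℕ,
      (∀ y : G, p ∣ orderOf y →
        ∑ χ : IrrCharacter G, (d χ : ℂ) * conj ((χ : G → ℂ) y) = 0) ∧
      (∀ χ₁ : IrrCharacter G, (∀ g, (χ₁ : G → ℂ) g = 1) → 1 ≤ d χ₁) ∧
      (∑ χ : IrrCharacter G, d χ ^ 2) * (Nat.card Q * Nat.card R) ≤ Nat.card G := by
  classical
  have hrep : ∀ χ : IrrCharacter G, ∃ (n : ℕ) (ρ : Representation ℂ G (Fin n → ℂ)),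
      ρ.IsIrreducible ∧ ρ.character = (χ : G → ℂ) := fun χ => χ.2
  choose n ρ hirr hchar using hrep
  let _ : Fintype Q := Fintype.ofFinite Q
  let _ : Fintype R := Fintype.ofFinite R
  have hcQ : Fintype.card Q = Nat.card Q := (Nat.card_eq_fintype_card).symm
  have hcR : Fintype.card R = Nat.card R := (Nat.card_eq_fintype_card).symm
  let EQ : ∀ χ, Module.End ℂ (Fin (n χ) → ℂ) := fun χ => ∑ u : Q, ρ χ (u : G)
  let ER : ∀ χ, Module.End ℂ (Fin (n χ) → ℂ) := fun χ => ∑ w : R, ρ χ (w : G)
  let z₀ : MonoidAlgebra ℂ G := ∑ u : Q, ∑ w : R, MonoidAlgebra.of ℂ G ((u : G) * (w : G))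
  have hA : ∀ χ, (ρ χ).asAlgebraHom z₀ = EQ χ * ER χ := by
    intro χ
    simp only [z₀, EQ, ER, map_sum, Representation.asAlgebraHom_of, map_mul, Finset.sum_mul_sum]
  have hAint : ∀ χ, IsIntegral ℤ ((ρ χ).asAlgebraHom z₀) := by
    intro χ
    let φ : MonoidAlgebra ℤ G →ₐ[ℤ] Module.End ℂ (Fin (n χ) → ℂ) :=
      MonoidAlgebra.lift ℤ _ G (ρ χ)
    let z' : MonoidAlgebra ℤ G := ∑ u : Q, ∑ w : R, MonoidAlgebra.of ℤ G ((u : G) * (w : G))
    have h1 : φ z' = (ρ χ).asAlgebraHom z₀ := by
      simp only [z', z₀, φ, map_sum, MonoidAlgebra.lift_of, Representation.asAlgebraHom_of]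
    rw [← h1]
    exact (IsIntegral.of_finite ℤ z').map φ
  have hz₀ : ∀ g, z₀.coeff g ∈ Zc := by
    intro g
    simp only [z₀, MonoidAlgebra.coeff_sum, MonoidAlgebra.of_apply, MonoidAlgebra.coeff_single,
      Finsupp.finsetSum_apply, Finsupp.single_apply]
    refine Subring.sum_mem _ fun u _ => Subring.sum_mem _ fun w _ => ?_
    split_ifs
    · exact Subring.one_mem _
    · exact Subring.zero_mem _
  choose s mult hs_eig htr hrank using fun χ => SpecTrace.spec ((ρ χ).asAlgebraHom z₀)
  -- the index set for the separation lemma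
  let ι : Type u := Σ _ : IrrCharacter G, ℂ
  let I : Finset ι := Finset.univ.sigma s
  let lam : ι → ℂ := fun i => i.2
  let c : G → ι → ℂ := fun y i => (mult i.1 i.2 : ℂ) * conj ((i.1 : G → ℂ) y)
  let L : Finset ℂ := I.image lam ∪ (Finset.univ ×ˢ I).image (fun q : G × ι => c q.1 q.2)
  have hL : ∀ x ∈ L, IsIntegral ℤ x := by
    intro x hx
    rcases Finset.mem_union.mp hx with h | h
    · obtain ⟨i, hi, rfl⟩ := Finset.mem_image.mp h
      have hi2 : i.2 ∈ s i.1 := (Finset.mem_sigma.mp hi).2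
      exact SpecTrace.isIntegral_of_hasEigenvalue _ (hAint i.1) _ (hs_eig i.1 i.2 hi2)
    · obtain ⟨q, _, rfl⟩ := Finset.mem_image.mp h
      exact IsIntegral.mul (isIntegral_natCast _)
        (map_isIntegral_int (starRingEnd ℂ)
          (Cfsg.Agent.Lib.Helper80.Integrality.isIntegral_irrCharacter q.2.1 q.1))
  obtain ⟨U, m, hm, hUnat, hU0, hsep⟩ := PAdicSep.padic_sep.{u} p hp L hL
  let d : IrrCharacter G → ℕ := fun χ => ∑ μ ∈ (s χ).filter (· ∈ U), mult χ μ
  refine ⟨d, ?_, ?_, ?_⟩
  · intro y hy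
    set a : ℕ := (Nat.card G).factorization p with ha
    have hG0 : Nat.card G ≠ 0 := Nat.card_pos.ne'
    let T : Set G := {g | IsConj g y}
    have hT : ∀ a b : G, a * b ∈ T → b * a ∈ T := by
      intro a b hab
      have h1 : IsConj (b * a) (a * b) := isConj_iff.mpr ⟨a, by group⟩
      exact h1.trans hab
    have hTp : ∀ g : G, g ^ (p ^ a) ∉ T := by
      intro g hg
      have h1 : orderOf (g ^ (p ^ a)) = orderOf y := orderOf_eq_of_isConj _ _ hg
      have h2 : (g ^ (p ^ a)) ^ (Nat.card G / p ^ a) = 1 := by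
        rw [← pow_mul, Nat.ordProj_mul_ordCompl_eq_self, pow_card_eq_one']
      have h3 : orderOf (g ^ (p ^ a)) ∣ Nat.card G / p ^ a := orderOf_dvd_of_pow_eq_one h2
      rw [h1] at h3
      exact Nat.not_dvd_ordCompl hp hG0 (hy.trans h3)
    have hcong : ∀ N, a ≤ N → ∃ t : ℤ,
        ∑ i ∈ I, c y i * lam i ^ (m * p ^ N) = (p : ℂ) ^ (N - a + 1) * t := by
      intro N hN
      obtain ⟨r, hr, hsum⟩ := Cfsg.Agent.Lib.CT.Rotation.sum_coeff_pow_mem Zc p a N hp hN T hT hTp
        (z₀ ^ m) (coeff_pow_mem z₀ hz₀ m)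
      obtain ⟨t₀, ht₀⟩ := RingHom.mem_range.mp hr
      refine ⟨(Nat.card (Subgroup.centralizer ({y} : Set G)) : ℤ) * t₀, ?_⟩
      have h1 : ∑ i ∈ I, c y i * lam i ^ (m * p ^ N) = ∑ χ : IrrCharacter G,
          conj ((χ : G → ℂ) y) *
            LinearMap.trace ℂ _ (((ρ χ).asAlgebraHom z₀) ^ (m * p ^ N)) := by
        rw [Finset.sum_sigma]
        refine Finset.sum_congr rfl fun χ _ => ?_
        rw [htr χ, Finset.mul_sum]
        refine Finset.sum_congr rfl fun μ _ => ?_
        simp only [c, lam]; ring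
      have h2 : ∀ χ : IrrCharacter G,
          LinearMap.trace ℂ _ (((ρ χ).asAlgebraHom z₀) ^ (m * p ^ N)) =
            ∑ g : G, (z₀ ^ (m * p ^ N)).coeff g * (χ : G → ℂ) g := by
        intro χ
        rw [← map_pow, Cfsg.Agent.Lib.Helper77.CentralChar.trace_asAlgebraHom, hchar χ,
          Cfsg.Agent.Lib.Helper77.CentralChar.pair_eq_sum]
      have h3 : ∀ g : G, ∑ χ : IrrCharacter G, conj ((χ : G → ℂ) y) *
          ((z₀ ^ (m * p ^ N)).coeff g * (χ : G → ℂ) g) = (z₀ ^ (m * p ^ N)).coeff g *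
            (if IsConj g y then (Nat.card (Subgroup.centralizer ({y} : Set G)) : ℂ) else 0) := by
        intro g
        have h5 := second_orth_conj g y
        rw [← h5, Finset.mul_sum]
        exact Finset.sum_congr rfl fun χ _ => by ring
      have h4 : ∑ g : G, (z₀ ^ (m * p ^ N)).coeff g *
          (if IsConj g y then (Nat.card (Subgroup.centralizer ({y} : Set G)) : ℂ) else 0) =
          (Nat.card (Subgroup.centralizer ({y} : Set G)) : ℂ) *
            ∑ t : G, (if t ∈ T then ((z₀ ^ m) ^ (p ^ N)).coeff t else 0) := by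
        rw [Finset.mul_sum, ← pow_mul]
        refine Finset.sum_congr rfl fun g _ => ?_
        by_cases hg : IsConj g y
        · rw [if_pos hg, if_pos (show g ∈ T from hg)]; ring
        · rw [if_neg hg, if_neg (show g ∉ T from hg)]; ring
      rw [h1]
      simp_rw [h2, Finset.mul_sum]
      rw [Finset.sum_comm]
      simp_rw [h3]
      have ht₀' : r = (t₀ : ℂ) := by rw [← ht₀]; simp
      rw [h4, hsum, ht₀']
      push_cast
      ring
    have key := hsep ι I (c y) lam
      (fun i hi => Finset.mem_union_right _ (Finset.mem_image.mpr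
        ⟨(y, i), Finset.mem_product.mpr ⟨Finset.mem_univ _, hi⟩, rfl⟩))
      (fun i hi => Finset.mem_union_left _ (Finset.mem_image_of_mem _ hi)) a hcong
    rw [Finset.sum_sigma] at key
    refine Eq.trans ?_ key
    refine Finset.sum_congr rfl fun χ _ => ?_
    simp only [d]
    rw [Nat.cast_sum, Finset.sum_mul, Finset.sum_filter]
  · intro χ₁ h1
    have hρ1 : ∀ g, ρ χ₁ g = 1 := by
      intro g
      rw [← Cfsg.Agent.Lib.CT.Kernel.rep_char_eq_iff (ρ χ₁) g, hchar χ₁, h1, h1]
    set n₀ : ℕ := Nat.card Q * Nat.card R with hn₀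
    have hA1 : (ρ χ₁).asAlgebraHom z₀ = (n₀ : ℂ) • (1 : Module.End ℂ (Fin (n χ₁) → ℂ)) := by
      rw [hA]
      simp only [EQ, ER, hρ1, Finset.sum_const, Finset.card_univ, hcQ, hcR]
      rw [hn₀, ← Nat.cast_smul_eq_nsmul ℂ, ← Nat.cast_smul_eq_nsmul ℂ]
      simp [smul_smul, mul_comm]
    have hs1 : ∀ μ ∈ s χ₁, μ = (n₀ : ℂ) := by
      intro μ hμ
      obtain ⟨v, hv⟩ := (hs_eig χ₁ μ hμ).exists_hasEigenvector
      have h2 := hv.apply_eq_smul
      rw [hA1] at h2
      have h3 : ((n₀ : ℂ) - μ) • v = 0 := by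
        rw [sub_smul, ← h2]; simp
      have h4 := (smul_eq_zero.mp h3).resolve_right hv.2
      exact (sub_eq_zero.mp h4).symm
    have hsum1 : ∑ μ ∈ s χ₁, mult χ₁ μ = 1 := by
      have h0 := htr χ₁ 0
      simp only [pow_zero, mul_one] at h0
      have h5 : LinearMap.trace ℂ _ (1 : Module.End ℂ (Fin (n χ₁) → ℂ)) = 1 := by
        have h6 : (ρ χ₁).character 1 = 1 := by rw [hchar χ₁]; exact h1 1
        rw [← h6]
        show _ = LinearMap.trace ℂ _ ((ρ χ₁) 1)
        rw [show (ρ χ₁) 1 = 1 from map_one (ρ χ₁)]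
      rw [h5] at h0
      exact_mod_cast h0.symm
    show 1 ≤ ∑ μ ∈ (s χ₁).filter (· ∈ U), mult χ₁ μ
    have hfil : (s χ₁).filter (· ∈ U) = s χ₁ := by
      apply Finset.filter_true_of_mem
      intro μ hμ
      rw [hs1 μ hμ]
      exact hUnat n₀ hQRp
    rw [hfil, hsum1]
  · have hd_le : ∀ χ, d χ ≤ finrank ℂ (LinearMap.range ((ρ χ).asAlgebraHom z₀)) := by
      intro χ
      refine le_trans ?_ (hrank χ)
      apply Finset.sum_le_sum_of_subset
      intro μ hμ
      rw [Finset.mem_filter] at hμ ⊢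
      exact ⟨hμ.1, fun h0 => hU0 (h0 ▸ hμ.2)⟩
    let mQ : IrrCharacter G → ℕ := fun χ => finrank ℂ (LinearMap.range (EQ χ))
    let mR : IrrCharacter G → ℕ := fun χ => finrank ℂ (LinearMap.range (ER χ))
    have hdQ : ∀ χ, d χ ≤ mQ χ := by
      intro χ
      refine le_trans (hd_le χ) ?_
      rw [hA χ]
      exact Submodule.finrank_mono (LinearMap.range_comp_le_range (ER χ) (EQ χ))
    have hdR : ∀ χ, d χ ≤ mR χ := by
      intro χ
      refine le_trans (hd_le χ) ?_
      rw [hA χ]
      have h1 : LinearMap.range (EQ χ * ER χ) = (LinearMap.range (ER χ)).map (EQ χ) :=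
        LinearMap.range_comp (ER χ) (EQ χ)
      rw [h1]
      exact Submodule.finrank_map_le _ _
    have hmQ : ∀ χ : IrrCharacter G,
        (mQ χ : ℂ) * (Nat.card Q : ℂ) = ∑ u : Q, (χ : G → ℂ) (u : G) := by
      intro χ
      have h1 := rank_sum_subgroup (ρ χ) Q
      rw [hchar χ, hcQ] at h1
      exact h1
    have hmR : ∀ χ : IrrCharacter G,
        (mR χ : ℂ) * (Nat.card R : ℂ) = ∑ w : R, conj ((χ : G → ℂ) (w : G)) := by
      intro χ
      have h1 := rank_sum_subgroup (ρ χ) R
      rw [hchar χ, hcR] at h1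
      have h2 := congrArg (starRingEnd ℂ) h1
      rw [map_mul, map_natCast, map_natCast, map_sum] at h2
      exact h2
    have hkey : ∀ (u : Q) (w : R),
        (if IsConj (u : G) (w : G) then
          (Nat.card (Subgroup.centralizer ({(w : G)} : Set G)) : ℂ) else 0) =
        if u = 1 ∧ w = 1 then (Nat.card G : ℂ) else 0 := by
      intro u w
      by_cases hc : IsConj (u : G) (w : G)
      · have ho := orderOf_eq_of_isConj _ _ hc
        have h1 : orderOf (u : G) ∣ Nat.card Q := by
          rw [Subgroup.orderOf_coe]; exact orderOf_dvd_natCard u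
        have h2 : orderOf (w : G) ∣ Nat.card R := by
          rw [Subgroup.orderOf_coe]; exact orderOf_dvd_natCard w
        have h3 : orderOf (u : G) = 1 := Nat.eq_one_of_dvd_coprimes hcop h1 (ho ▸ h2)
        have hu : u = 1 := Subtype.ext (orderOf_eq_one_iff.mp h3)
        have hw : w = 1 := Subtype.ext (orderOf_eq_one_iff.mp (ho ▸ h3))
        rw [if_pos hc, if_pos ⟨hu, hw⟩, hw]
        have h4 : Subgroup.centralizer ({((1 : R) : G)} : Set G) = ⊤ := by
          ext x; simp [Subgroup.mem_centralizer_iff]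
        rw [h4, Subgroup.card_top]
      · rw [if_neg hc, if_neg]
        rintro ⟨rfl, rfl⟩
        exact hc (by simp)
    have hsum : (∑ χ : IrrCharacter G, mQ χ * mR χ) * (Nat.card Q * Nat.card R) =
        Nat.card G := by
      have hC : ((∑ χ : IrrCharacter G, mQ χ * mR χ : ℕ) : ℂ) *
          ((Nat.card Q : ℂ) * (Nat.card R : ℂ)) = (Nat.card G : ℂ) := by
        rw [Nat.cast_sum, Finset.sum_mul]
        have h1 : ∀ χ : IrrCharacter G, ((mQ χ * mR χ : ℕ) : ℂ) *
            ((Nat.card Q : ℂ) * (Nat.card R : ℂ)) =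
            ∑ u : Q, ∑ w : R, (χ : G → ℂ) (u : G) * conj ((χ : G → ℂ) (w : G)) := by
          intro χ
          rw [Nat.cast_mul, ← Finset.sum_mul_sum, ← hmQ χ, ← hmR χ]; ring
        rw [Finset.sum_congr rfl fun χ _ => h1 χ, Finset.sum_comm]
        have h2 : ∀ u : Q, ∑ χ : IrrCharacter G, ∑ w : R,
            (χ : G → ℂ) (u : G) * conj ((χ : G → ℂ) (w : G)) =
            ∑ w : R, if u = 1 ∧ w = 1 then (Nat.card G : ℂ) else 0 := by
          intro u
          rw [Finset.sum_comm]
          refine Finset.sum_congr rfl fun w _ => ?_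
          rw [second_orth_conj, hkey]
        rw [Finset.sum_congr rfl fun u _ => h2 u]
        rw [Finset.sum_eq_single (1 : Q), Finset.sum_eq_single (1 : R)]
        · simp
        · intro w _ hw
          rw [if_neg]; rintro ⟨-, h⟩; exact hw h
        · intro h; exact absurd (Finset.mem_univ _) h
        · intro u _ hu
          refine Finset.sum_eq_zero fun w _ => ?_
          rw [if_neg]; rintro ⟨h, -⟩; exact hu h
        · intro h; exact absurd (Finset.mem_univ _) h
      exact_mod_cast hC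
    calc (∑ χ : IrrCharacter G, d χ ^ 2) * (Nat.card Q * Nat.card R)
        ≤ (∑ χ : IrrCharacter G, mQ χ * mR χ) * (Nat.card Q * Nat.card R) :=
          Nat.mul_le_mul_right _ (Finset.sum_le_sum fun χ _ => by
            rw [sq]; exact Nat.mul_le_mul (hdQ χ) (hdR χ))
      _ = Nat.card G := hsum

end Cfsg.Agent.Lib.Helper76.ProjChar
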