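import Mathlib
import Cfsg.Agent.Lib.Helper46.PsuStmt
import Cfsg.Agent.Lib.Helper97.PslP1
import Cfsg.Agent.Lib.Helper53.PGroupBasics

/-!
# S5172 piece CLP: `ClosedJ` from its parts
-/

set_option autoImplicit false

namespace Cfsg.Agent.Lib.Helper76.PsuCLP

open Matrix Cfsg.Agent.Lib.Helper43.SUBase Cfsg.Agent.H84.PslDefs
  Cfsg.Agent.Lib.Helper46.PsuDefs Cfsg.Agent.Lib.Helper46.PsuStmt

universe u

/-- the unitriangular group is a `p`-group -/
theorem isPGroup_Uni (n : ℕ) (K : Type u) [Field K] [Fintype K] (p : ℕ) [Fact p.Prime]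
    [CharP K p] : IsPGroup p (Uni n K) := by
  obtain ⟨f, -, hf⟩ := FiniteField.card K p
  have hU : Nat.card (Uni n K) = Fintype.card K ^ (n * (n - 1) / 2) :=
    Cfsg.Agent.Lib.Helper97.PslP1.card_Uni n K
  exact IsPGroup.of_card (n := (f : ℕ) * (n * (n - 1) / 2)) (by rw [hU, hf, pow_mul])

theorem main : ClosedOfParts.{u} := by
  intro hCC hCIT hLIT hSTT hSLT hMIT hGEN n K _ _ p _ _ q D hn T hTU hTne hcl
  classical
  have hUp : IsPGroup p (UJ D n) := (isPGroup_Uni n K p).to_le inf_le_right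
  -- `T` is normal in `UJ`
  have hnorm : (T.subgroupOf (UJ D n)).Normal := by
    constructor
    intro t ht u
    rw [Subgroup.mem_subgroupOf] at ht ⊢
    have h1 : ((u * t * u⁻¹ : UJ D n) : SpecialLinearGroup (Fin n) K) =
        (u : SpecialLinearGroup (Fin n) K) * (t : SpecialLinearGroup (Fin n) K) *
          (u : SpecialLinearGroup (Fin n) K)⁻¹ := by simp
    rw [h1]
    apply hcl _ ht _ (UJ_le_GJ D n u.2)
    rw [← h1]; exact (u * t * u⁻¹).2
  have hne : T.subgroupOf (UJ D n) ≠ ⊥ := by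
    intro h
    apply hTne
    rw [Subgroup.subgroupOf_eq_bot] at h
    rw [eq_bot_iff]
    intro x hx
    exact (Subgroup.disjoint_def.1 h) hx (hTU hx)
  obtain ⟨z, hzT, hz1, hzc⟩ :=
    Cfsg.Agent.Lib.Helper53.PGroupBasics.exists_center_mem_normal hUp (T.subgroupOf (UJ D n)) hne
  rw [Subgroup.mem_subgroupOf] at hzT
  rw [Subgroup.mem_center_iff] at hzc
  have hz1' : (z : SpecialLinearGroup (Fin n) K) ≠ 1 := by
    intro h
    exact hz1 (Subtype.ext h)
  have hzcorner : Corner n (z : SpecialLinearGroup (Fin n) K) := by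
    apply hCC n K q D hn _ z.2
    intro u hu
    have h1 := hzc ⟨u, hu⟩
    exact congrArg Subtype.val h1
  have hcor := hCIT n K q D hn T hTU hcl ⟨_, hzT, hz1', hzcorner⟩
  have hlong := hLIT n K q D hn T hTU hcl hcor
  have hst := hSTT n K q D hn T hTU hcl hlong
  have hsl := hSLT n K q D hn T hTU hcl hst
  have hmid := hMIT n K q D hn T hTU hcl hst hsl
  apply le_antisymm hTU
  refine (hGEN n K q D hn).trans ((Subgroup.closure_le T).2 ?_)
  rintro g ⟨hgU, hg⟩
  rcases hg with hg | hg | hg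
  · exact hlong g hgU hg
  · obtain ⟨i, j, a, hij, hjr, hjne, hgm⟩ := hg
    by_cases hj : j.val < n / 2
    · exact hsl g hgU ⟨i, j, a, hij, hj, hgm⟩
    · refine hst g hgU ⟨i, j, a, hij, hjr, ?_, hgm⟩
      have h1 : j.val ≠ (Fin.rev j).val := fun h => hjne (Fin.ext h)
      rw [Fin.val_rev] at h1
      have := j.isLt
      omega
  · exact hmid g hgU hg

end Cfsg.Agent.Lib.Helper76.PsuCLP
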