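import Mathlib
import Cfsg.Agent.Lib.Helper46.PsuStmt

/-!
# S5172 piece NL: block triangular matrices normalize the level groups `sub n K lam`
-/

set_option autoImplicit false

namespace Cfsg.Agent.Lib.Helper76.PsuNL

open Matrix Cfsg.Agent.Lib.Helper43.SUBase Cfsg.Agent.H84.PslDefs
  Cfsg.Agent.Lib.Helper46.PsuDefs Cfsg.Agent.Lib.Helper46.PsuStmt

universe u

theorem main : NormalLam.{u} := by
  intro n K _ lam g hg r hr
  rw [mem_sub] at hr ⊢
  have hAB : (g : Matrix (Fin n) (Fin n) K) *
      ((g⁻¹ : SpecialLinearGroup (Fin n) K) : Matrix (Fin n) (Fin n) K) = 1 := by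
    rw [← Matrix.SpecialLinearGroup.coe_mul, mul_inv_cancel, Matrix.SpecialLinearGroup.coe_one]
  -- the inverse is block triangular
  have hBt : ∀ k l : Fin n, lam k < lam l →
      ((g⁻¹ : SpecialLinearGroup (Fin n) K) : Matrix (Fin n) (Fin n) K) k l = 0 := by
    have h1 : Matrix.BlockTriangular (g : Matrix (Fin n) (Fin n) K) (fun i => -lam i) := by
      intro i j hij
      exact hg i j (by simpa using hij)
    let _ : Invertible (g : Matrix (Fin n) (Fin n) K) :=
      invertibleOfRightInverse _ _ hAB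
    have h2 := Matrix.blockTriangular_inv_of_blockTriangular h1
    have h3 : (g : Matrix (Fin n) (Fin n) K)⁻¹ =
        ((g⁻¹ : SpecialLinearGroup (Fin n) K) : Matrix (Fin n) (Fin n) K) :=
      Matrix.inv_eq_right_inv hAB
    rw [h3] at h2
    intro k l hkl
    exact h2 (by simpa using hkl)
  have key : ((g * r * g⁻¹ : SpecialLinearGroup (Fin n) K) : Matrix (Fin n) (Fin n) K) =
      1 + (g : Matrix (Fin n) (Fin n) K) * ((r : Matrix (Fin n) (Fin n) K) - 1) *
        ((g⁻¹ : SpecialLinearGroup (Fin n) K) : Matrix (Fin n) (Fin n) K) := by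
    rw [Matrix.SpecialLinearGroup.coe_mul, Matrix.SpecialLinearGroup.coe_mul, Matrix.mul_sub, Matrix.sub_mul,
      Matrix.mul_one, hAB]
    abel
  have hN : ∀ k l : Fin n, lam k ≤ lam l → ((r : Matrix (Fin n) (Fin n) K) - 1) k l = 0 := by
    intro k l hkl
    by_cases h : k = l
    · subst h
      rw [Matrix.sub_apply, Matrix.one_apply_eq, hr.2 k, sub_self]
    · rw [Matrix.sub_apply, Matrix.one_apply_ne h, hr.1 k l h hkl, sub_zero]
  have hprod : ∀ i j : Fin n, lam i ≤ lam j →
      ((g : Matrix (Fin n) (Fin n) K) * ((r : Matrix (Fin n) (Fin n) K) - 1) *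
        ((g⁻¹ : SpecialLinearGroup (Fin n) K) : Matrix (Fin n) (Fin n) K)) i j = 0 := by
    intro i j hij
    rw [Matrix.mul_apply]
    apply Finset.sum_eq_zero
    intro l _
    rw [Matrix.mul_apply, Finset.sum_mul]
    apply Finset.sum_eq_zero
    intro k _
    by_cases h1 : lam i < lam k
    · rw [hg i k h1, zero_mul, zero_mul]
    · by_cases h2 : lam k ≤ lam l
      · rw [hN k l h2, mul_zero, zero_mul]
      · have h3 : lam l < lam j := by omega
        rw [hBt l j h3, mul_zero]
  constructor
  · intro i j hne hle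
    have h1 := congrFun (congrFun key i) j
    rw [Matrix.add_apply, Matrix.one_apply_ne hne, hprod i j hle, add_zero] at h1
    exact h1
  · intro i
    have h1 := congrFun (congrFun key i) i
    rw [Matrix.add_apply, Matrix.one_apply_eq, hprod i i le_rfl, add_zero] at h1
    exact h1

end Cfsg.Agent.Lib.Helper76.PsuNL
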