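import Mathlib
import Cfsg.Agent.Lib.Helper46.PsuStmt
import Cfsg.Agent.Lib.Helper46.PsuROOTS

/-!
# S5172 piece NT: `UJ` contains a non-diagonal matrix
-/

set_option autoImplicit false

namespace Cfsg.Agent.Lib.Helper76.PsuNT

open Matrix Cfsg.Agent.Lib.Helper43.SUBase Cfsg.Agent.H84.PslDefs
  Cfsg.Agent.Lib.Helper46.PsuDefs Cfsg.Agent.Lib.Helper46.PsuStmt

universe u

theorem main : UJNontrivial.{u} := by
  intro n K _ _ q D hn
  obtain ⟨c, hc0, hc⟩ := D.exists_skew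
  have hroots := Cfsg.Agent.Lib.Helper46.PsuROOTS.main n K q D
  have hi : (⟨0, by omega⟩ : Fin n) < Fin.rev (⟨0, by omega⟩ : Fin n) := by
    rw [Fin.lt_def, Fin.val_rev]
    simp only
    omega
  obtain ⟨g, hgU, hg⟩ := hroots.1 ⟨0, by omega⟩ c hi hc
  refine ⟨g, hgU, ⟨0, by omega⟩, Fin.rev ⟨0, by omega⟩, ne_of_lt hi, ?_⟩
  have h1 := congrFun (congrFun hg ⟨0, by omega⟩) (Fin.rev ⟨0, by omega⟩)
  have h2 : longM n (⟨0, by omega⟩ : Fin n) c ⟨0, by omega⟩ (Fin.rev ⟨0, by omega⟩) = c := by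
    simp [longM, Matrix.one_apply_ne (ne_of_lt hi)]
  rw [h2] at h1
  intro h0
  apply hc0
  rw [← h1]
  exact h0

end Cfsg.Agent.Lib.Helper76.PsuNT
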