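import Mathlib
import Cfsg.Agent.Lib.Helper54.S52Stmt
import Cfsg.Agent.Lib.Helper54.BG126
import Cfsg.Agent.Lib.Helper71.EqZH

set_option autoImplicit false

/-!
helper76: piece CNE of S1352 (helper54's call): for `r ∈ κ(M)` and `R0 ≤ M` of order `r`,
`C_{M_σ}(R0) ≠ 1`.
-/

namespace Cfsg.Agent.Lib.Helper76.S52CNE

universe u

theorem main : Cfsg.Agent.Lib.Helper54.S52Stmt.CNe.{u} := by
  intro G _ _ M R0 r hr hR0M hcard
  obtain ⟨hrp, hdvd, hns, hall⟩ := hr
  have : Fact r.Prime := ⟨hrp⟩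
  have hpg : IsPGroup r R0 := IsPGroup.of_card (n := 1) (by rw [hcard, pow_one])
  obtain ⟨P, hP⟩ := Cfsg.Agent.Lib.Helper54.BG126.exists_sylow_ge hR0M hpg
  obtain ⟨hcyc, x, hxP, hx1, y, hy, hy1, hxy⟩ := hall P
  have := hcyc
  have hPmcyc : IsCyclic ↥((P : Subgroup M).map M.subtype) :=
    isCyclic_of_surjective (M.subtype.subgroupMap (P : Subgroup M))
      (MonoidHom.subgroupMap_surjective _ _)
  have := hPmcyc
  have hPmpg : IsPGroup r ↥((P : Subgroup M).map M.subtype) := P.2.map M.subtype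
  have hxG1 : (x : G) ≠ 1 := by
    intro h
    apply hx1
    exact Subtype.ext h
  have hxmem : (x : G) ∈ (P : Subgroup M).map M.subtype := ⟨x, hxP, rfl⟩
  have hex : ∃ k, (x : G) ^ r ^ k = 1 := by
    obtain ⟨k, hk⟩ := hPmpg ⟨(x : G), hxmem⟩
    refine ⟨k, ?_⟩
    have := congrArg Subtype.val hk
    simpa using this
  classical
  obtain ⟨k, hk, hmin⟩ : ∃ k, (x : G) ^ r ^ k = 1 ∧ ∀ m, (x : G) ^ r ^ m = 1 → k ≤ m :=
    ⟨Nat.find hex, Nat.find_spec hex, fun m hm => Nat.find_min' hex hm⟩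
  have hk0 : k ≠ 0 := by
    intro h0
    rw [h0, pow_zero, pow_one] at hk
    exact hxG1 hk
  obtain ⟨j, hj⟩ := Nat.exists_eq_succ_of_ne_zero hk0
  have hz1 : (x : G) ^ r ^ j ≠ 1 := by
    intro h
    have := hmin j h
    omega
  have hzr : ((x : G) ^ r ^ j) ^ r = 1 := by
    rw [← pow_mul, ← pow_succ, ← Nat.succ_eq_add_one, ← hj]; exact hk
  -- the subgroup corresponding to R0 inside the cyclic group
  have hLcard : Nat.card (R0.subgroupOf ((P : Subgroup M).map M.subtype)) = r := by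
    exact (Nat.card_congr (Subgroup.subgroupOfEquivOfLe hP).toEquiv).trans hcard
  have hzmem : (x : G) ^ r ^ j ∈ (P : Subgroup M).map M.subtype := pow_mem hxmem _
  have hzL : (⟨(x : G) ^ r ^ j, hzmem⟩ : ↥((P : Subgroup M).map M.subtype)) ∈
      R0.subgroupOf ((P : Subgroup M).map M.subtype) := by
    apply Cfsg.Agent.Lib.Helper71.EqZH.mem_of_pow_card_eq_one
    rw [hLcard]
    apply Subtype.ext
    simpa using hzr
  have hzR0 : (x : G) ^ r ^ j ∈ R0 := by
    simpa [Subgroup.mem_subgroupOf] using hzL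
  have hcomm : Commute (x : G) y := hxy
  have hzy : Commute ((x : G) ^ r ^ j) y := hcomm.pow_left _
  have hyC : y ∈ Cfsg.sigmaCore M ⊓ Subgroup.centralizer (R0 : Set G) := by
    refine Subgroup.mem_inf.2 ⟨hy, ?_⟩
    rw [Subgroup.mem_centralizer_iff]
    intro u hu
    have hz1' : (⟨(x : G) ^ r ^ j, hzR0⟩ : R0) ≠ 1 := by
      intro h
      apply hz1
      have := congrArg Subtype.val h
      simpa using this
    have hmem : (⟨u, hu⟩ : R0) ∈ Subgroup.zpowers (⟨(x : G) ^ r ^ j, hzR0⟩ : R0) :=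
      mem_zpowers_of_prime_card hcard hz1'
    obtain ⟨n, hn⟩ := Subgroup.mem_zpowers_iff.1 hmem
    have hu' : u = ((x : G) ^ r ^ j) ^ n := by
      have := congrArg Subtype.val hn
      simpa using this.symm
    rw [hu']
    exact (hzy.zpow_left n).eq
  intro hbot
  rw [hbot] at hyC
  exact hy1 (Subgroup.mem_bot.1 hyC)

example : Cfsg.Agent.Lib.Helper54.S52Stmt.CNe.{u} := main

end Cfsg.Agent.Lib.Helper76.S52CNE

#print axioms Cfsg.Agent.Lib.Helper76.S52CNE.main
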