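import Mathlib
import Cfsg.Agent.Lib.Helper14.TC3Stmt
import Cfsg.Agent.Lib.Helper3.MGroup
import Cfsg.Agent.Lib.CT.IndChar
import Cfsg.Agent.Lib.Helper80.Integrality

/-!
# S4460 piece H4 (second seat)

`χ` of degree `m > 1`, `ψ'` of degree `n > 1`, `UComm G`, and `ψ' g = n` whenever `g ∈ G'` and
`χ g ≠ 0`: contradiction.
-/

set_option autoImplicit false

namespace Cfsg.Agent.Lib.Helper76.TC3H4

open Cfsg Cfsg.Agent.Lib.Helper14.TC3Stmt
open scoped ComplexConjugate commutatorElement

universe u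

theorem main : H4.{u} := by
  intro G _ _ m n hm hn hU χ ψ' hχm hψn hkey
  classical
  have hχc : IsCharacter G (χ : G → ℂ) := Cfsg.Agent.Lib.CT.Ops.IsIrrCharacter.isCharacter χ.2
  have hψc : IsCharacter G (ψ' : G → ℂ) := Cfsg.Agent.Lib.CT.Ops.IsIrrCharacter.isCharacter ψ'.2
  have hχ1 : (χ : G → ℂ) 1 = (m : ℂ) := by
    rw [Cfsg.Agent.Lib.Helper80.Integrality.apply_one_eq_charDegree hχc, hχm]
  have hψ1 : (ψ' : G → ℂ) 1 = (n : ℂ) := by
    rw [Cfsg.Agent.Lib.Helper80.Integrality.apply_one_eq_charDegree hψc, hψn]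
  obtain ⟨Kψ, hKn, hKmem⟩ := Cfsg.Agent.Lib.CT.Kernel.exists_normal_ker hψc
  have hDn : (commutator G).Normal := inferInstance
  by_cases hL : commutator G ⊓ Kψ = ⊥
  · -- χ vanishes on G' \ {1}
    have hvan : ∀ g ∈ commutator G, g ≠ 1 → (χ : G → ℂ) g = 0 := by
      intro g hg hg1
      by_contra h0
      have h1 := hkey g hg h0
      have h2 : g ∈ commutator G ⊓ Kψ := ⟨hg, (hKmem g).2 (by rw [h1, hψ1])⟩
      rw [hL] at h2
      exact hg1 (Subgroup.mem_bot.1 h2)
    have hΦ : IsCharacter G (indFun (commutator G) (fun _ : commutator G => (1 : ℂ))) :=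
      Cfsg.Agent.Lib.CT.IndChar.isCharacter_indFun (commutator G) _
        Cfsg.Agent.Lib.CT.Ops.isCharacter_one
    have hΦk : ∀ k ∈ commutator G, indFun (commutator G) (fun _ : commutator G => (1 : ℂ)) k =
        indFun (commutator G) (fun _ : commutator G => (1 : ℂ)) 1 := by
      intro k hk
      have e1 := Cfsg.Agent.Lib.CT.Clifford.indFun_restrict (commutator G) hDn
        (fun _ : commutator G => (1 : ℂ)) ⟨k, hk⟩
      have e2 := Cfsg.Agent.Lib.CT.Clifford.indFun_restrict (commutator G) hDn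
        (fun _ : commutator G => (1 : ℂ)) 1
      simp only [Cfsg.Agent.Lib.CT.Clifford.conjFun_apply] at e1 e2
      rw [e1]
      exact e2.symm
    have hcon : classInner (indFun (commutator G) (fun _ : commutator G => (1 : ℂ)))
        (χ : G → ℂ) ≠ 0 := by
      rw [Cfsg.Agent.Lib.CT.FrobRec.frobenius_reciprocity (commutator G) _ _
        (Cfsg.Agent.Lib.CT.Wedderburn.char_isClassFunction hχc)]
      unfold classInner
      have hsum : ∑ h : commutator G, (1 : ℂ) * conj ((χ : G → ℂ) h) = (m : ℂ) := by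
        rw [Finset.sum_eq_single (1 : commutator G)]
        · simp [hχ1]
        · intro b _ hb
          rw [hvan b b.2 (fun h => hb (Subtype.ext h))]
          simp
        · intro h
          exact absurd (Finset.mem_univ _) h
      rw [hsum]
      have h3 : (Nat.card (commutator G) : ℂ) ≠ 0 := by
        exact_mod_cast (Nat.card_pos (α := commutator G)).ne'
      have h4 : (m : ℂ) ≠ 0 := by
        exact_mod_cast (by omega : m ≠ 0)
      exact mul_ne_zero (inv_ne_zero h3) h4
    have hker : ∀ k ∈ commutator G, (χ : G → ℂ) k = (χ : G → ℂ) 1 := fun k hk =>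
      Cfsg.Agent.Lib.Helper3.MGroup.constituent_apply_eq hΦ χ.2 hcon (hΦk k hk)
    have h1 := Cfsg.Agent.Lib.Helper3.MGroup.apply_one_eq_one_of_comm χ.2 (fun a b =>
      hker _ (Subgroup.commutator_mem_commutator (Subgroup.mem_top a) (Subgroup.mem_top b)))
    rw [hχ1] at h1
    have : m = 1 := by exact_mod_cast h1
    omega
  · have hle := hU (commutator G ⊓ Kψ) inferInstance hL
    have hker : ∀ k ∈ commutator G, (ψ' : G → ℂ) k = (ψ' : G → ℂ) 1 := fun k hk =>
      (hKmem k).1 (hle hk).2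
    have h1 := Cfsg.Agent.Lib.Helper3.MGroup.apply_one_eq_one_of_comm ψ'.2 (fun a b =>
      hker _ (Subgroup.commutator_mem_commutator (Subgroup.mem_top a) (Subgroup.mem_top b)))
    rw [hψ1] at h1
    have : n = 1 := by exact_mod_cast h1
    omega

#print axioms main

end Cfsg.Agent.Lib.Helper76.TC3H4
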